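import Mathlib
import Cfsg.Agent.Lib.Char.Decomp
import Cfsg.Agent.Lib.Char.Complete
import Cfsg.Agent.Lib.Char.Iso

/-!
Operators commuting with a representation: the scalar by which such an operator acts on a
constituent of multiplicity one is an inner product of a twisted trace with the character.
-/

set_option autoImplicit false
set_option linter.style.haveILetI false

namespace Cfsg.Agent.Lib.Perm.CentRing

universe u v w

open Cfsg (classInner IsIrrCharacter IsCharacter IrrCharacter IsClassFunction)
open Cfsg.Agent.Lib.Char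
open scoped ComplexConjugate
open Module

variable {G : Type u} [Group G] [Fintype G]

section Abstract

variable {V : Type v} [AddCommGroup V] [Module ℂ V]

/-- The group-algebra element attached to `χ`, acting on a representation. -/
noncomputable def eOp (χ : G → ℂ) (ρ : Representation ℂ G V) : Module.End ℂ V :=
  ∑ g, conj (χ g) • ρ g

/-- The trace of an operator composed with the group action. -/
noncomputable def twist (ρ : Representation ℂ G V) (D : Module.End ℂ V) : G → ℂ :=
  fun g => LinearMap.trace ℂ V (D * ρ g)

theorem classInner_twist (ρ : Representation ℂ G V) (D : Module.End ℂ V) (χ : G → ℂ) :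
    classInner (twist ρ D) χ = (Nat.card G : ℂ)⁻¹ * LinearMap.trace ℂ V (D * eOp χ ρ) := by
  simp only [classInner, twist, eOp, Finset.mul_sum, map_sum, mul_smul_comm, map_smul, smul_eq_mul]
  refine Finset.sum_congr rfl fun g _ => ?_
  ring

theorem trace_eOp (ρ : Representation ℂ G V) (χ : G → ℂ) :
    LinearMap.trace ℂ V (eOp χ ρ) = (Nat.card G : ℂ) * classInner ρ.character χ := by
  have h0 := card_ne_zero_complex G
  simp only [classInner, eOp, map_sum, map_smul, smul_eq_mul, Representation.character]
  rw [mul_inv_cancel_left₀ h0]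
  refine Finset.sum_congr rfl fun g _ => ?_
  ring

theorem isClassFunction_conj {χ : G → ℂ} (hχ : IsClassFunction G χ) :
    IsClassFunction G (fun g => conj (χ g)) := fun g h => by
  simp only
  rw [hχ g h]

theorem eOp_comm {χ : G → ℂ} (hχ : IsClassFunction G χ) (ρ : Representation ℂ G V) (h : G) (v : V) :
    eOp χ ρ (ρ h v) = ρ h (eOp χ ρ v) :=
  sum_smul_commutes ρ (fun g => conj (χ g)) (isClassFunction_conj hχ) h v

theorem eOp_irr_eq [FiniteDimensional ℂ V] {χ : G → ℂ} (hχ : IsClassFunction G χ)
    {ρ : Representation ℂ G V} (hρ : ρ.IsIrreducible) :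
    eOp χ ρ = ((Nat.card G : ℂ) * classInner ρ.character χ / (finrank ℂ V : ℂ)) • 1 := by
  obtain ⟨c, hc⟩ := schur_scalar ρ hρ (eOp χ ρ) (fun g v => eOp_comm hχ ρ g v)
  have hV : Nontrivial V := ((isIrreducible_iff ρ).mp hρ).1
  have hn : (finrank ℂ V : ℂ) ≠ 0 := by
    have : finrank ℂ V ≠ 0 := (Module.finrank_pos (R := ℂ) (M := V)).ne'
    exact_mod_cast this
  have h1 := trace_eOp ρ χ
  rw [hc, map_smul, LinearMap.trace_one, smul_eq_mul] at h1
  rw [hc, ← h1]
  congr 1
  field_simp

theorem eOp_eq_zero {U : Type w} [AddCommGroup U] [Module ℂ U] [FiniteDimensional ℂ U]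
    (σ : Representation ℂ G U) (hχ : IsClassFunction G σ.character)
    [FiniteDimensional ℂ V] (ρ : Representation ℂ G V)
    (h : classInner ρ.character σ.character = 0) : eOp σ.character ρ = 0 := by
  refine rep_induction (P := fun V _ _ _ ρ => classInner ρ.character σ.character = 0 →
    eOp σ.character ρ = 0) ?_ ?_ ?_ V ρ h
  · intro V _ _ _ ρ hV _
    exact Subsingleton.elim _ _
  · intro V _ _ _ ρ hρ h0
    rw [eOp_irr_eq hχ hρ, h0]
    simp
  · intro V _ _ _ ρ U' W hc hU hW h0
    have hch := character_of_isCompl ρ U' W hc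
    rw [hch, classInner_add_left, classInner_character σ U'.toRepresentation,
      classInner_character σ W.toRepresentation] at h0
    have h1 : finrank ℂ (Representation.IntertwiningMap σ U'.toRepresentation) +
        finrank ℂ (Representation.IntertwiningMap σ W.toRepresentation) = 0 := by
      exact_mod_cast h0
    have h2 : classInner U'.toRepresentation.character σ.character = 0 := by
      rw [classInner_character σ U'.toRepresentation]
      have : finrank ℂ (Representation.IntertwiningMap σ U'.toRepresentation) = 0 := by omega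
      rw [this]
      simp
    have h3 : classInner W.toRepresentation.character σ.character = 0 := by
      rw [classInner_character σ W.toRepresentation]
      have : finrank ℂ (Representation.IntertwiningMap σ W.toRepresentation) = 0 := by omega
      rw [this]
      simp
    have hU' := hU h2
    have hW' := hW h3
    ext v
    have hv : v ∈ U'.toSubmodule ⊔ W.toSubmodule := by
      rw [hc.sup_eq_top]; trivial
    obtain ⟨u, hu, w, hw, rfl⟩ := Submodule.mem_sup.mp hv
    have h4 := congrArg (fun T : Module.End ℂ _ => ((T ⟨u, hu⟩ : U'.toSubmodule) : V)) hU'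
    have h5 := congrArg (fun T : Module.End ℂ _ => ((T ⟨w, hw⟩ : W.toSubmodule) : V)) hW'
    simp only [eOp, LinearMap.sum_apply, LinearMap.smul_apply, LinearMap.zero_apply,
      Submodule.coe_sum, Submodule.coe_smul, Submodule.coe_zero] at h4 h5
    have h4' : ∑ g, conj (σ.character g) • ρ g u = 0 := h4
    have h5' : ∑ g, conj (σ.character g) • ρ g w = 0 := h5
    simp only [eOp, LinearMap.sum_apply, LinearMap.smul_apply, LinearMap.zero_apply, map_add,
      smul_add, Finset.sum_add_distrib]
    rw [h4', h5', add_zero]

/-- An injective intertwiner from an irreducible representation. -/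
theorem injective_of_irr {U : Type w} [AddCommGroup U] [Module ℂ U]
    {σ : Representation ℂ G U} (hσ : σ.IsIrreducible) {ρ : Representation ℂ G V}
    (f : Representation.IntertwiningMap σ ρ) (hf : f ≠ 0) : Function.Injective f := by
  obtain ⟨-, h2⟩ := (isIrreducible_iff σ).mp hσ
  have h3 := h2 (LinearMap.ker f.toLinearMap) (by
    intro g v hv
    rw [LinearMap.mem_ker] at hv ⊢
    change f (σ g v) = 0
    rw [f.isIntertwining]
    have : f v = 0 := hv
    rw [this, map_zero])
  rcases h3 with h3 | h3
  · have h4 : Function.Injective f.toLinearMap := LinearMap.ker_eq_bot.mp h3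
    exact h4
  · exfalso
    apply hf
    apply Representation.IntertwiningMap.ext
    exact LinearMap.ker_eq_top.mp h3

/-- The range of an injective intertwiner has the character of the source. -/
theorem range_character {U : Type w} [AddCommGroup U] [Module ℂ U]
    {σ : Representation ℂ G U} {ρ : Representation ℂ G V}
    (f : Representation.IntertwiningMap σ ρ) (hf : Function.Injective f) :
    f.range.toRepresentation.character = σ.character := by
  funext g
  simp only [Representation.character]
  let e₀ : U →ₗ[ℂ] f.range.toSubmodule :=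
    { toFun := fun u => ⟨f u, (f.mem_range _ _ _).mpr ⟨u, rfl⟩⟩
      map_add' := fun x y => Subtype.ext (map_add f x y)
      map_smul' := fun c x => Subtype.ext (map_smul f c x) }
  let e : U ≃ₗ[ℂ] f.range.toSubmodule :=
    LinearEquiv.ofBijective e₀
      ⟨fun x y h => hf (congrArg Subtype.val h), fun y => by
        obtain ⟨u, hu⟩ := (f.mem_range _ _ _).mp y.2
        exact ⟨u, Subtype.ext hu⟩⟩
  have he : ∀ u, ((e u : f.range.toSubmodule) : V) = f u := fun u => rfl
  have h : f.range.toRepresentation g = e.conj (σ g) := by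
    ext1 w
    obtain ⟨u, rfl⟩ := e.surjective w
    simp only [LinearEquiv.conj_apply, LinearMap.comp_apply, LinearEquiv.coe_coe,
      LinearEquiv.symm_apply_apply]
    apply Subtype.ext
    rw [he]
    change ρ g (e u : V) = f (σ g u)
    rw [he, f.isIntertwining]
  rw [h, LinearMap.trace_conj']

/-- The intertwiner together with the scalar formula for commuting operators, in the case of
multiplicity one. -/
theorem exists_scalar {U : Type w} [AddCommGroup U] [Module ℂ U] [FiniteDimensional ℂ U]
    {σ : Representation ℂ G U} (hσ : σ.IsIrreducible)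
    (hχ : IsClassFunction G σ.character) [FiniteDimensional ℂ V]
    (ρ : Representation ℂ G V) (h1 : classInner ρ.character σ.character = 1) :
    ∃ f : Representation.IntertwiningMap σ ρ, Function.Injective f ∧
      ∀ D : Module.End ℂ V, (∀ g v, D (ρ g v) = ρ g (D v)) → ∀ u,
        D (f u) = classInner (twist ρ D) σ.character • f u := by
  classical
  have hfin : finrank ℂ (Representation.IntertwiningMap σ ρ) = 1 := by
    have h2 := classInner_character σ ρ
    rw [h1] at h2
    exact_mod_cast h2.symm
  obtain ⟨f, hf0, hf⟩ := finrank_eq_one_iff'.mp hfin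
  have hinj := injective_of_irr hσ f hf0
  refine ⟨f, hinj, ?_⟩
  intro D hD u
  have hUnt : Nontrivial U := ((isIrreducible_iff σ).mp hσ).1
  let Df : Representation.IntertwiningMap σ ρ :=
    ⟨D ∘ₗ f.toLinearMap, fun g => by
      ext u
      simp only [LinearMap.comp_apply]
      change D (f (σ g u)) = ρ g (D (f u))
      rw [f.isIntertwining, hD]⟩
  obtain ⟨μ, hμ⟩ := hf Df
  have hμ' : ∀ u, D (f u) = μ • f u := by
    intro u
    have := congrArg (fun F : Representation.IntertwiningMap σ ρ => F u) hμ
    exact this.symm
  obtain ⟨W, hW⟩ := exists_compl_subrep ρ f.range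
  have hch := character_of_isCompl ρ f.range W hW
  rw [range_character f hinj] at hch
  have h2 : classInner W.toRepresentation.character σ.character = 0 := by
    have h3 := h1
    rw [hch, classInner_add_left, classInner_character σ σ,
      Representation.IsIrreducible.finrank_intertwiningMap_self (k := ℂ) σ] at h3
    simpa using h3
  have hE0 := eOp_eq_zero σ hχ W.toRepresentation h2
  have hEW : ∀ w ∈ W.toSubmodule, eOp σ.character ρ w = 0 := by
    intro w hw
    have h4 := congrArg (fun T : Module.End ℂ _ => ((T ⟨w, hw⟩ : W.toSubmodule) : V)) hE0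
    simp only [eOp, LinearMap.sum_apply, LinearMap.smul_apply, LinearMap.zero_apply,
      Submodule.coe_sum, Submodule.coe_smul, Submodule.coe_zero] at h4
    simp only [eOp, LinearMap.sum_apply, LinearMap.smul_apply]
    exact h4
  have hn : (finrank ℂ U : ℂ) ≠ 0 := by
    have : finrank ℂ U ≠ 0 := (Module.finrank_pos (R := ℂ) (M := U)).ne'
    exact_mod_cast this
  have hG := card_ne_zero_complex G
  have hself : classInner σ.character σ.character = 1 := by
    rw [classInner_character σ σ,
      Representation.IsIrreducible.finrank_intertwiningMap_self (k := ℂ) σ]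
    simp
  let c : ℂ := (Nat.card G : ℂ) / (finrank ℂ U : ℂ)
  have hEf : ∀ u, eOp σ.character ρ (f u) = c • f u := by
    intro u
    have h4 : eOp σ.character ρ (f u) = f (eOp σ.character σ u) := by
      simp only [eOp, LinearMap.sum_apply, LinearMap.smul_apply, map_sum, map_smul,
        f.isIntertwining]
    rw [h4, eOp_irr_eq hχ hσ, hself, mul_one]
    simp [c]
  let T : Module.End ℂ V := D * eOp σ.character ρ
  have hTf : ∀ u, T (f u) = (c * μ) • f u := by
    intro u
    change D (eOp σ.character ρ (f u)) = _
    rw [hEf, map_smul, hμ', smul_smul]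
  have hTU : Set.MapsTo T f.range.toSubmodule f.range.toSubmodule := by
    intro v hv
    obtain ⟨u, rfl⟩ := (f.mem_range _ _ _).mp hv
    rw [hTf, ← map_smul]
    exact (f.mem_range _ _ _).mpr ⟨_, rfl⟩
  have hTW : Set.MapsTo T W.toSubmodule W.toSubmodule := by
    intro v hv
    change D (eOp σ.character ρ v) ∈ W.toSubmodule
    rw [hEW v hv, map_zero]
    exact Submodule.zero_mem _
  have htr := trace_of_isCompl T f.range.toSubmodule W.toSubmodule hW hTU hTW
  have hres1 : T.restrict hTU = (c * μ) • LinearMap.id := by
    ext1 ⟨v, hv⟩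
    obtain ⟨u, rfl⟩ := (f.mem_range _ _ _).mp hv
    apply Subtype.ext
    simp only [LinearMap.smul_apply, LinearMap.id_apply, Submodule.coe_smul]
    exact hTf u
  have hres2 : T.restrict hTW = 0 := by
    ext1 ⟨v, hv⟩
    apply Subtype.ext
    simp only [LinearMap.zero_apply, Submodule.coe_zero]
    change D (eOp σ.character ρ v) = 0
    rw [hEW v hv, map_zero]
  have hdim : finrank ℂ f.range.toSubmodule = finrank ℂ U := by
    have h5 := congrFun (range_character f hinj) 1
    simp only [Representation.character, map_one, LinearMap.trace_one] at h5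
    exact_mod_cast h5
  rw [hres1, hres2, map_zero, add_zero, map_smul] at htr
  have htr2 : LinearMap.trace ℂ V T = (Nat.card G : ℂ) * μ := by
    rw [htr]
    have h6 : LinearMap.trace ℂ f.range.toSubmodule LinearMap.id = (finrank ℂ U : ℂ) := by
      have : (LinearMap.id : f.range.toSubmodule →ₗ[ℂ] f.range.toSubmodule) = 1 := rfl
      rw [this, LinearMap.trace_one, hdim]
    rw [h6, smul_eq_mul]
    simp only [c]
    field_simp
  rw [classInner_twist]
  change D (f u) = ((Nat.card G : ℂ)⁻¹ * LinearMap.trace ℂ V T) • f u
  rw [htr2, inv_mul_cancel_left₀ hG]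
  exact hμ' u

theorem classInner_twist_eq_zero {U : Type w} [AddCommGroup U] [Module ℂ U] [FiniteDimensional ℂ U]
    (σ : Representation ℂ G U) (hχ : IsClassFunction G σ.character) [FiniteDimensional ℂ V]
    (ρ : Representation ℂ G V) (h : classInner ρ.character σ.character = 0) (D : Module.End ℂ V) :
    classInner (twist ρ D) σ.character = 0 := by
  rw [classInner_twist, eOp_eq_zero σ hχ ρ h, mul_zero, map_zero, mul_zero]

/-- Multiplicativity of the coefficients, in multiplicity at most one. -/
theorem classInner_twist_mul {U : Type w} [AddCommGroup U] [Module ℂ U] [FiniteDimensional ℂ U]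
    {σ : Representation ℂ G U} (hσ : σ.IsIrreducible) (hχ : IsClassFunction G σ.character)
    [FiniteDimensional ℂ V] (ρ : Representation ℂ G V)
    (h : classInner ρ.character σ.character = 0 ∨ classInner ρ.character σ.character = 1)
    (D₁ D₂ : Module.End ℂ V) (h₁ : ∀ g v, D₁ (ρ g v) = ρ g (D₁ v))
    (h₂ : ∀ g v, D₂ (ρ g v) = ρ g (D₂ v)) :
    classInner (twist ρ (D₁ * D₂)) σ.character =
      classInner (twist ρ D₁) σ.character * classInner (twist ρ D₂) σ.character := by
  rcases h with h | h
  · rw [classInner_twist_eq_zero σ hχ ρ h, classInner_twist_eq_zero σ hχ ρ h, zero_mul]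
  · obtain ⟨f, hf, hD⟩ := exists_scalar hσ hχ ρ h
    have hUnt : Nontrivial U := ((isIrreducible_iff σ).mp hσ).1
    obtain ⟨u, hu⟩ := exists_ne (0 : U)
    have hfu : f u ≠ 0 := by
      intro h0
      apply hu
      apply hf
      rw [h0, map_zero]
    have h12 : ∀ g v, (D₁ * D₂) (ρ g v) = ρ g ((D₁ * D₂) v) := by
      intro g v
      simp only [Module.End.mul_apply]
      rw [h₂, h₁]
    have h3 := hD (D₁ * D₂) h12 u
    rw [Module.End.mul_apply, hD D₂ h₂, map_smul, hD D₁ h₁, smul_smul] at h3
    have h4 := smul_left_injective ℂ hfu h3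
    rw [← h4, mul_comm]

theorem twist_isClassFunction (ρ : Representation ℂ G V) (D : Module.End ℂ V)
    (hD : ∀ g v, D (ρ g v) = ρ g (D v)) : IsClassFunction G (twist ρ D) := by
  intro g h
  simp only [twist]
  have h1 : D * ρ (h * g * h⁻¹) = ρ h * (D * ρ g * ρ h⁻¹) := by
    ext v
    simp only [map_mul, Module.End.mul_apply, hD]
  rw [h1, LinearMap.trace_mul_comm]
  have h2 : D * ρ g * ρ h⁻¹ * ρ h = D * ρ g := by
    rw [mul_assoc, ← map_mul, inv_mul_cancel, map_one, mul_one]
  rw [h2]

theorem twist_sub (ρ : Representation ℂ G V) (A B : Module.End ℂ V) :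
    twist ρ (A - B) = twist ρ A - twist ρ B := by
  funext g
  simp only [twist, sub_mul, map_sub, Pi.sub_apply]

/-- The trace in terms of the coefficients. -/
theorem trace_eq_sum [FiniteDimensional ℂ V] (ρ : Representation ℂ G V) (D : Module.End ℂ V)
    (hD : ∀ g v, D (ρ g v) = ρ g (D v)) :
    LinearMap.trace ℂ V D =
      ∑ χ : IrrCharacter G, classInner (twist ρ D) (χ : G → ℂ) * (χ : G → ℂ) 1 := by
  have h1 := congrFun (classFunction_eq_sum _ (twist_isClassFunction ρ D hD)) 1
  simp only [Finset.sum_apply, Pi.smul_apply, smul_eq_mul] at h1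
  rw [← h1]
  simp [twist]

/-- A retraction of an injective intertwiner. -/
theorem exists_retraction {U : Type w} [AddCommGroup U] [Module ℂ U]
    {σ : Representation ℂ G U} {ρ : Representation ℂ G V}
    (f : Representation.IntertwiningMap σ ρ) (hf : Function.Injective f) :
    ∃ p : V →ₗ[ℂ] U, (∀ u, p (f u) = u) ∧ ∀ g v, p (ρ g v) = σ g (p v) := by
  classical
  have hG := card_ne_zero_complex G
  obtain ⟨q, hq⟩ := LinearMap.exists_leftInverse_of_injective f.toLinearMap
    (LinearMap.ker_eq_bot.mpr hf)
  have hq' : ∀ u, q (f u) = u := fun u => LinearMap.congr_fun hq u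
  refine ⟨(Nat.card G : ℂ)⁻¹ • ∑ g, σ g ∘ₗ q ∘ₗ ρ g⁻¹, ?_, ?_⟩
  · intro u
    simp only [LinearMap.smul_apply, LinearMap.sum_apply, LinearMap.comp_apply]
    have h1 : ∀ g : G, σ g (q (ρ g⁻¹ (f u))) = u := by
      intro g
      rw [← f.isIntertwining, hq', ← Module.End.mul_apply, ← map_mul, mul_inv_cancel, map_one,
        Module.End.one_apply]
    simp only [h1, Finset.sum_const, Finset.card_univ]
    rw [← Nat.card_eq_fintype_card, ← Nat.cast_smul_eq_nsmul ℂ, smul_smul, inv_mul_cancel₀ hG,
      one_smul]
  · intro h v
    simp only [LinearMap.smul_apply, LinearMap.sum_apply, LinearMap.comp_apply, map_smul, map_sum]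
    congr 1
    rw [← Equiv.sum_comp (Equiv.mulLeft h)]
    refine Finset.sum_congr rfl fun g _ => ?_
    simp only [Equiv.coe_mulLeft, mul_inv_rev, map_mul, Module.End.mul_apply]
    have h3 : ρ h⁻¹ (ρ h v) = v := by
      rw [← Module.End.mul_apply, ← map_mul, inv_mul_cancel, map_one, Module.End.one_apply]
    rw [h3]

/-- If all commuting operators commute with each other, multiplicities are at most one. -/
theorem multFree_of_comm {U : Type w} [AddCommGroup U] [Module ℂ U] [FiniteDimensional ℂ U]
    {σ : Representation ℂ G U} (hσ : σ.IsIrreducible) [FiniteDimensional ℂ V]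
    (ρ : Representation ℂ G V)
    (hcomm : ∀ S T : Module.End ℂ V, (∀ g v, S (ρ g v) = ρ g (S v)) →
      (∀ g v, T (ρ g v) = ρ g (T v)) → S * T = T * S) :
    classInner ρ.character σ.character = 0 ∨ classInner ρ.character σ.character = 1 := by
  classical
  have h1 := classInner_character σ ρ
  rw [h1]
  by_cases hd : finrank ℂ (Representation.IntertwiningMap σ ρ) = 0
  · left; rw [hd]; simp
  by_cases hd1 : finrank ℂ (Representation.IntertwiningMap σ ρ) = 1
  · right; rw [hd1]; simp
  exfalso
  have hpos : 0 < finrank ℂ (Representation.IntertwiningMap σ ρ) := Nat.pos_of_ne_zero hd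
  have hnt : Nontrivial (Representation.IntertwiningMap σ ρ) := Module.nontrivial_of_finrank_pos hpos
  obtain ⟨f, hf0⟩ := exists_ne (0 : Representation.IntertwiningMap σ ρ)
  have h1lt : 1 < finrank ℂ (Representation.IntertwiningMap σ ρ) := by omega
  obtain ⟨g', hg'⟩ := exists_linearIndependent_pair_of_one_lt_finrank h1lt hf0
  have hinj := injective_of_irr hσ f hf0
  obtain ⟨p, hp1, hp2⟩ := exists_retraction f hinj
  let S : Module.End ℂ V := f.toLinearMap ∘ₗ p
  let T : Module.End ℂ V := g'.toLinearMap ∘ₗ p
  have hS : ∀ g v, S (ρ g v) = ρ g (S v) := by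
    intro g v
    change f (p (ρ g v)) = ρ g (f (p v))
    rw [hp2, f.isIntertwining]
  have hT : ∀ g v, T (ρ g v) = ρ g (T v) := by
    intro g v
    change g' (p (ρ g v)) = ρ g (g' (p v))
    rw [hp2, g'.isIntertwining]
  have hST := hcomm S T hS hT
  obtain ⟨c, hc⟩ := schur_scalar σ hσ (p ∘ₗ g'.toLinearMap) (by
    intro g v
    change p (g' (σ g v)) = σ g (p (g' v))
    rw [g'.isIntertwining, hp2])
  have hpg : ∀ u, p (g' u) = c • u := by
    intro u
    have := LinearMap.congr_fun hc u
    simpa using this
  have hkey : ∀ u, g' u = c • f u := by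
    intro u
    have h2 := LinearMap.congr_fun hST (f u)
    have h3 : (S * T) (f u) = c • f u := by
      change f (p (g' (p (f u)))) = c • f u
      rw [hp1, hpg, map_smul]
    have h4 : (T * S) (f u) = g' u := by
      change g' (p (f (p (f u)))) = g' u
      rw [hp1, hp1]
    rw [h3, h4] at h2
    exact h2.symm
  have h5 := LinearIndependent.pair_iff.mp hg' (-c) 1 (by
    apply Representation.IntertwiningMap.ext
    ext u
    have h6 := hkey u
    change (-c • f + (1 : ℂ) • g') u = 0
    rw [Representation.IntertwiningMap.coe_add]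
    simp only [Pi.add_apply, Representation.IntertwiningMap.coe_smul, Pi.smul_apply, h6]
    simp)
  exact one_ne_zero h5.2

end Abstract

end Cfsg.Agent.Lib.Perm.CentRing
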