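import Mathlib
import Cfsg.Prelude.Def_Perm
import Cfsg.Agent.Lib.Perm.CentRing
import Cfsg.Agent.Lib.Char.Constituent
import Cfsg.Agent.Lib.Char.PermChar

/-!
The centraliser ring of a permutation representation, in terms of invariant matrices.
-/

set_option autoImplicit false
set_option linter.style.haveILetI false

namespace Cfsg.Agent.Lib.Perm.CentRing

universe u v

open Cfsg (classInner IsIrrCharacter IsCharacter IrrCharacter IsClassFunction permRep)
open Cfsg.Agent.Lib.Char
open scoped ComplexConjugate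
open Module

variable {G : Type u} [Group G] [Fintype G] {Ω : Type v} [Fintype Ω] [MulAction G Ω]

/-- A matrix indexed by the points is invariant under the group. -/
def Inv (G : Type u) [Group G] [MulAction G Ω] (M : Matrix Ω Ω ℂ) : Prop :=
  ∀ (g : G) (x y : Ω), M (g • x) (g • y) = M x y

variable [DecidableEq Ω]

theorem permRep_eq_toLin (g : G) :
    permRep ℂ G Ω g = Matrix.toLin' (Matrix.of fun x y => if g⁻¹ • x = y then (1 : ℂ) else 0) := by
  refine LinearMap.ext fun f => funext fun x => ?_
  simp only [Matrix.toLin'_apply, Matrix.mulVec, dotProduct, Matrix.of_apply, ite_mul, one_mul,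
    zero_mul, Finset.sum_ite_eq, Finset.mem_univ, if_true]
  rfl

theorem permRep_character (g : G) :
    (permRep ℂ G Ω).character g = (Nat.card (MulAction.fixedBy Ω g) : ℂ) := by
  simp only [Representation.character]
  rw [permRep_eq_toLin, Matrix.trace_toLin'_eq]
  simp only [Matrix.trace, Matrix.diag, Matrix.of_apply, Finset.sum_boole]
  congr 1
  have h1 : ∀ x : Ω, g⁻¹ • x = x ↔ x ∈ MulAction.fixedBy Ω g := by
    intro x
    rw [MulAction.mem_fixedBy, inv_smul_eq_iff, eq_comm]
  simp only [h1]
  rw [Nat.card_eq_fintype_card, Fintype.card_subtype]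

theorem comm_of_inv {M : Matrix Ω Ω ℂ} (hM : Inv G M) (g : G) (v : Ω → ℂ) :
    Matrix.toLin' M (permRep ℂ G Ω g v) = permRep ℂ G Ω g (Matrix.toLin' M v) := by
  funext x
  change Matrix.mulVec M (fun y => v (g⁻¹ • y)) x = Matrix.mulVec M v (g⁻¹ • x)
  simp only [Matrix.mulVec, dotProduct]
  rw [← Equiv.sum_comp (MulAction.toPerm g)]
  refine Finset.sum_congr rfl fun y _ => ?_
  simp only [MulAction.toPerm_apply, inv_smul_smul]
  congr 1
  have := hM g⁻¹ x (g • y)
  rw [inv_smul_smul] at this
  exact this.symm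

theorem inv_of_comm (T : Module.End ℂ (Ω → ℂ))
    (hT : ∀ g v, T (permRep ℂ G Ω g v) = permRep ℂ G Ω g (T v)) :
    Inv G (LinearMap.toMatrix' T) := by
  intro g x y
  simp only [LinearMap.toMatrix'_apply]
  have h1 : (Pi.single (g • y) 1 : Ω → ℂ) = permRep ℂ G Ω g (Pi.single y 1) := by
    funext j
    change _ = (Pi.single y 1 : Ω → ℂ) (g⁻¹ • j)
    simp only [Pi.single_apply, inv_smul_eq_iff]
  rw [h1, hT]
  change T _ (g⁻¹ • g • x) = _
  rw [inv_smul_smul]

theorem comm_toLin_toMatrix (T : Module.End ℂ (Ω → ℂ)) :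
    Matrix.toLin' (LinearMap.toMatrix' T) = T := Matrix.toLin'_toMatrix' T

/-- The twisted trace in matrix form. -/
theorem twist_toLin (M : Matrix Ω Ω ℂ) (g : G) :
    twist (permRep ℂ G Ω) (Matrix.toLin' M) g = ∑ x, M x (g • x) := by
  simp only [twist]
  rw [permRep_eq_toLin, Module.End.mul_eq_comp, ← Matrix.toLin'_mul, Matrix.trace_toLin'_eq]
  simp only [Matrix.trace, Matrix.diag, Matrix.mul_apply, Matrix.of_apply, mul_ite, mul_one,
    mul_zero]
  refine Finset.sum_congr rfl fun x _ => ?_
  rw [Finset.sum_eq_single (g • x)]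
  · simp
  · intro y _ hy
    rw [if_neg]
    intro h
    apply hy
    rw [← h, smul_inv_smul]
  · simp

theorem inv_conjTranspose {M : Matrix Ω Ω ℂ} (hM : Inv G M) : Inv G M.conjTranspose := by
  intro g x y
  simp only [Matrix.conjTranspose_apply, hM g]

theorem inv_mul {M N : Matrix Ω Ω ℂ} (hM : Inv G M) (hN : Inv G N) : Inv G (M * N) := by
  intro g x y
  simp only [Matrix.mul_apply]
  rw [← Equiv.sum_comp (MulAction.toPerm g)]
  refine Finset.sum_congr rfl fun z _ => ?_
  simp only [MulAction.toPerm_apply, hM g, hN g]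

/-- Vanishing of all coefficients forces an invariant matrix to vanish, in the multiplicity-free
case. -/
theorem eq_zero_of_coeffs
    (hfree : ∀ χ : G → ℂ, IsIrrCharacter G χ → classInner (permRep ℂ G Ω).character χ = 0 ∨
      classInner (permRep ℂ G Ω).character χ = 1)
    {M : Matrix Ω Ω ℂ} (hM : Inv G M)
    (hc : ∀ χ : G → ℂ, IsIrrCharacter G χ →
      classInner (twist (permRep ℂ G Ω) (Matrix.toLin' M)) χ = 0) : M = 0 := by
  classical
  let N := M.conjTranspose
  have hN : Inv G N := inv_conjTranspose hM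
  have hT := trace_eq_sum (permRep ℂ G Ω) (Matrix.toLin' N * Matrix.toLin' M) (by
    intro g v
    simp only [Module.End.mul_apply]
    rw [comm_of_inv hM, comm_of_inv hN])
  have hzero : ∀ χ : IrrCharacter G,
      classInner (twist (permRep ℂ G Ω) (Matrix.toLin' N * Matrix.toLin' M)) (χ : G → ℂ) *
        (χ : G → ℂ) 1 = 0 := by
    rintro ⟨χ, hχ⟩
    have hχ' := hχ
    obtain ⟨n, σ, hσ, rfl⟩ := hχ'
    have hcl : IsClassFunction G σ.character := IsCharacter.isClassFunction (IsIrrCharacter.isCharacter hχ)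
    simp only
    rw [classInner_twist_mul hσ hcl (permRep ℂ G Ω) (hfree _ hχ) _ _ (comm_of_inv hN)
      (comm_of_inv hM), hc _ hχ]
    simp
  rw [Finset.sum_eq_zero (fun χ _ => hzero χ), Module.End.mul_eq_comp, ← Matrix.toLin'_mul,
    Matrix.trace_toLin'_eq] at hT
  simp only [Matrix.trace, Matrix.diag, Matrix.mul_apply, N, Matrix.conjTranspose_apply] at hT
  have h1 : ∀ x y : Ω, star (M y x) * M y x = ((‖M y x‖ ^ 2 : ℝ) : ℂ) := by
    intro x y
    rw [Complex.star_def, Complex.conj_mul']
    push_cast
    rfl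
  simp only [h1] at hT
  have h2 : ∑ x : Ω, ∑ y : Ω, ‖M y x‖ ^ 2 = 0 := by
    exact_mod_cast hT
  ext y x
  have h3 := (Finset.sum_eq_zero_iff_of_nonneg (fun x _ =>
    Finset.sum_nonneg (fun y _ => by positivity))).mp h2 x (Finset.mem_univ x)
  have h4 := (Finset.sum_eq_zero_iff_of_nonneg (fun y _ => by positivity)).mp h3 y (Finset.mem_univ y)
  have h5 : ‖M y x‖ = 0 := by
    simpa using h4
  simpa using h5

/-- In the multiplicity-free case, commuting operators commute with each other. -/
theorem comm_of_multFree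
    (hfree : ∀ χ : G → ℂ, IsIrrCharacter G χ → classInner (permRep ℂ G Ω).character χ = 0 ∨
      classInner (permRep ℂ G Ω).character χ = 1)
    (S T : Module.End ℂ (Ω → ℂ))
    (hS : ∀ g v, S (permRep ℂ G Ω g v) = permRep ℂ G Ω g (S v))
    (hT : ∀ g v, T (permRep ℂ G Ω g v) = permRep ℂ G Ω g (T v)) : S * T = T * S := by
  classical
  have hST : ∀ g v, (S * T) (permRep ℂ G Ω g v) = permRep ℂ G Ω g ((S * T) v) := by
    intro g v
    simp only [Module.End.mul_apply]
    rw [hT, hS]
  have hTS : ∀ g v, (T * S) (permRep ℂ G Ω g v) = permRep ℂ G Ω g ((T * S) v) := by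
    intro g v
    simp only [Module.End.mul_apply]
    rw [hS, hT]
  have hX : ∀ g v, (S * T - T * S) (permRep ℂ G Ω g v) = permRep ℂ G Ω g ((S * T - T * S) v) := by
    intro g v
    simp only [LinearMap.sub_apply, map_sub]
    rw [hST, hTS]
  have hM := inv_of_comm (G := G) (S * T - T * S) hX
  have h0 := eq_zero_of_coeffs hfree hM (by
    intro χ hχ
    rw [comm_toLin_toMatrix, twist_sub, classInner_sub_left]
    obtain ⟨n, σ, hσ, rfl⟩ := id hχ
    have hcl : IsClassFunction G σ.character := IsCharacter.isClassFunction (IsIrrCharacter.isCharacter hχ)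
    rw [classInner_twist_mul hσ hcl _ (hfree _ hχ) S T hS hT,
      classInner_twist_mul hσ hcl _ (hfree _ hχ) T S hT hS, mul_comm, sub_self])
  have h1 := comm_toLin_toMatrix (S * T - T * S)
  rw [h0, map_zero] at h1
  exact (sub_eq_zero.mp h1.symm)

/-- Multiplicity-freeness is equivalent to commutativity of the centraliser ring. -/
theorem multFree_iff_comm :
    (∀ χ : G → ℂ, IsIrrCharacter G χ → classInner (permRep ℂ G Ω).character χ = 0 ∨
      classInner (permRep ℂ G Ω).character χ = 1) ↔
    ∀ S T : Module.End ℂ (Ω → ℂ), (∀ g v, S (permRep ℂ G Ω g v) = permRep ℂ G Ω g (S v)) →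
      (∀ g v, T (permRep ℂ G Ω g v) = permRep ℂ G Ω g (T v)) → S * T = T * S := by
  constructor
  · exact comm_of_multFree
  · intro h χ hχ
    obtain ⟨n, σ, hσ, rfl⟩ := hχ
    exact multFree_of_comm hσ (permRep ℂ G Ω) h

omit [Fintype G] [DecidableEq Ω] [Fintype Ω] in
theorem mem_invariants_iff (S : (Ω → ℂ) →ₗ[ℂ] (Ω → ℂ)) :
    S ∈ ((permRep ℂ G Ω).linHom (permRep ℂ G Ω)).invariants ↔
      ∀ g v, S (permRep ℂ G Ω g v) = permRep ℂ G Ω g (S v) := by
  rw [Representation.mem_invariants]
  constructor
  · intro h g v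
    have h1 := LinearMap.congr_fun (h g) (permRep ℂ G Ω g v)
    rw [Representation.linHom_apply] at h1
    simp only [LinearMap.comp_apply] at h1
    rw [← Module.End.mul_apply (permRep ℂ G Ω g⁻¹), ← map_mul, inv_mul_cancel, map_one,
      Module.End.one_apply] at h1
    exact h1.symm
  · intro h g
    rw [Representation.linHom_apply]
    ext1 v
    simp only [LinearMap.comp_apply]
    have h2 : permRep ℂ G Ω g (permRep ℂ G Ω g⁻¹ v) = v := by
      rw [← Module.End.mul_apply, ← map_mul, mul_inv_cancel, map_one, Module.End.one_apply]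
    rw [← h, h2]

/-- If the group interchanges any two points, invariant matrices are symmetric. -/
theorem symm_of_inv (hsw : ∀ a b : Ω, ∃ g : G, g • a = b ∧ g • b = a) {M : Matrix Ω Ω ℂ}
    (hM : Inv G M) (x y : Ω) : M x y = M y x := by
  obtain ⟨g, h1, h2⟩ := hsw x y
  rw [← hM g x y, h1, h2]

theorem comm_of_swap (hsw : ∀ a b : Ω, ∃ g : G, g • a = b ∧ g • b = a)
    (S T : Module.End ℂ (Ω → ℂ))
    (hS : ∀ g v, S (permRep ℂ G Ω g v) = permRep ℂ G Ω g (S v))
    (hT : ∀ g v, T (permRep ℂ G Ω g v) = permRep ℂ G Ω g (T v)) : S * T = T * S := by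
  have h1 := inv_of_comm (G := G) S hS
  have h2 := inv_of_comm (G := G) T hT
  have h3 := inv_mul h1 h2
  have h4 : LinearMap.toMatrix' S * LinearMap.toMatrix' T =
      LinearMap.toMatrix' T * LinearMap.toMatrix' S := by
    ext x y
    rw [symm_of_inv hsw h3 x y]
    simp only [Matrix.mul_apply]
    refine Finset.sum_congr rfl fun z _ => ?_
    rw [symm_of_inv hsw h1 y z, symm_of_inv hsw h2 z x, mul_comm]
  apply LinearMap.toMatrix'.injective
  rw [Module.End.mul_eq_comp, Module.End.mul_eq_comp, LinearMap.toMatrix'_comp,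
    LinearMap.toMatrix'_comp, h4]

/-- The matrix of a group-algebra element. -/
theorem toMatrix_sum (a : G → ℂ) (x y : Ω) :
    LinearMap.toMatrix' (∑ g, a g • permRep ℂ G Ω g) x y =
      ∑ g : G, a g * (if g⁻¹ • x = y then 1 else 0) := by
  rw [map_sum, Matrix.sum_apply]
  refine Finset.sum_congr rfl fun g _ => ?_
  rw [map_smul, permRep_eq_toLin, LinearMap.toMatrix'_toLin', Matrix.smul_apply, smul_eq_mul,
    Matrix.of_apply]

theorem eOp_eq_of_swap (hsw : ∀ a b : Ω, ∃ g : G, g • a = b ∧ g • b = a) {χ : G → ℂ}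
    (hχ : IsCharacter G χ) :
    ∑ g, conj (χ g) • permRep ℂ G Ω g = ∑ g, χ g • permRep ℂ G Ω g := by
  have hcl := IsCharacter.isClassFunction hχ
  have h1 := inv_of_comm (G := G) (eOp χ (permRep ℂ G Ω))
    (fun g v => eOp_comm hcl (permRep ℂ G Ω) g v)
  apply LinearMap.toMatrix'.injective
  ext x y
  have h2 := symm_of_inv hsw h1 x y
  simp only [eOp] at h2
  rw [h2, toMatrix_sum, toMatrix_sum, ← Equiv.sum_comp (Equiv.inv G)]
  refine Finset.sum_congr rfl fun g _ => ?_
  simp only [Equiv.inv_apply, inv_inv]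
  rw [IsCharacter.map_inv' hχ, Complex.conj_conj]
  have h3 : (g⁻¹ • x = y) ↔ (g • y = x) := by rw [inv_smul_eq_iff, eq_comm]
  simp only [h3]

theorem real_of_swap (hsw : ∀ a b : Ω, ∃ g : G, g • a = b ∧ g • b = a) {n : ℕ}
    {σ : Representation ℂ G (Fin n → ℂ)} (hσ : σ.IsIrreducible) (hχ : IsIrrCharacter G σ.character)
    (h1 : classInner (permRep ℂ G Ω).character σ.character = 1) (g : G) :
    conj (σ.character g) = σ.character g := by
  have hch := IsIrrCharacter.isCharacter hχ
  have hcl := IsCharacter.isClassFunction hch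
  obtain ⟨f, hf, -⟩ := exists_scalar hσ hcl (permRep ℂ G Ω) h1
  have h2 := eOp_eq_of_swap (Ω := Ω) hsw hch
  have h3 : ∑ g, conj (σ.character g) • σ g = ∑ g, σ.character g • σ g := by
    apply LinearMap.ext
    intro u
    apply hf
    simp only [LinearMap.sum_apply, LinearMap.smul_apply, map_sum, map_smul, f.isIntertwining]
    have h5 := LinearMap.congr_fun h2 (f u)
    simpa only [LinearMap.sum_apply, LinearMap.smul_apply] using h5
  have h4 := congrArg (LinearMap.trace ℂ _) h3
  simp only [map_sum, map_smul, smul_eq_mul] at h4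
  have hself := classInner_irr_self hχ
  have hG := card_ne_zero_complex G
  have hA : ∑ g, σ.character g * conj (σ.character g) = (Nat.card G : ℂ) := by
    rw [classInner] at hself
    field_simp at hself
    exact hself
  have hB : ∑ g, σ.character g * σ.character g = (Nat.card G : ℂ) := by
    rw [← hA]
    have h6 : ∀ g, conj (σ.character g) * LinearMap.trace ℂ _ (σ g) =
        σ.character g * conj (σ.character g) := fun g => mul_comm _ _
    have h7 : ∀ g, σ.character g * LinearMap.trace ℂ _ (σ g) =
        σ.character g * σ.character g := fun g => rfl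
    simp only [h6, h7] at h4
    exact h4.symm
  have hB' : ∑ g, conj (σ.character g) * conj (σ.character g) = (Nat.card G : ℂ) := by
    have h6 := congrArg conj hB
    simpa only [map_sum, map_mul, Complex.conj_natCast] using h6
  have h0 : classInner (fun g => σ.character g - conj (σ.character g))
      (fun g => σ.character g - conj (σ.character g)) = 0 := by
    rw [classInner]
    have h6 : ∀ g, (σ.character g - conj (σ.character g)) *
        conj (σ.character g - conj (σ.character g)) =
        σ.character g * conj (σ.character g) + σ.character g * conj (σ.character g) -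
          σ.character g * σ.character g - conj (σ.character g) * conj (σ.character g) := by
      intro g
      simp only [map_sub, Complex.conj_conj]
      ring
    simp only [h6, Finset.sum_sub_distrib, Finset.sum_add_distrib, hA, hB, hB']
    ring
  have h8 := congrFun (classInner_self_eq_zero.mp h0) g
  exact (sub_eq_zero.mp h8).symm

theorem swap_of_real
    (h : ∀ χ : G → ℂ, IsIrrCharacter G χ → classInner (permRep ℂ G Ω).character χ ≠ 0 →
      classInner (permRep ℂ G Ω).character χ = 1 ∧ ∀ g : G, conj (χ g) = χ g) (a b : Ω) :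
    ∃ g : G, g • a = b ∧ g • b = a := by
  classical
  have hfree : ∀ χ : G → ℂ, IsIrrCharacter G χ → classInner (permRep ℂ G Ω).character χ = 0 ∨
      classInner (permRep ℂ G Ω).character χ = 1 := by
    intro χ hχ
    by_cases h0 : classInner (permRep ℂ G Ω).character χ = 0
    · exact Or.inl h0
    · exact Or.inr (h χ hχ h0).1
  let M : Matrix Ω Ω ℂ := Matrix.of fun x y => if ∃ g : G, g • a = x ∧ g • b = y then 1 else 0
  have hM : Inv G M := by
    intro g x y
    simp only [M, Matrix.of_apply]
    have h1 : (∃ k : G, k • a = g • x ∧ k • b = g • y) ↔ (∃ k : G, k • a = x ∧ k • b = y) := by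
      constructor
      · rintro ⟨k, h1, h2⟩
        refine ⟨g⁻¹ * k, ?_, ?_⟩
        · rw [mul_smul, h1, inv_smul_smul]
        · rw [mul_smul, h2, inv_smul_smul]
      · rintro ⟨k, h1, h2⟩
        refine ⟨g * k, ?_, ?_⟩
        · rw [mul_smul, h1]
        · rw [mul_smul, h2]
    simp only [h1]
  let D : Matrix Ω Ω ℂ := M - M.transpose
  have hD : Inv G D := by
    intro g x y
    simp only [D, Matrix.sub_apply, Matrix.transpose_apply, hM g]
  have htw : ∀ g : G, twist (permRep ℂ G Ω) (Matrix.toLin' D) g⁻¹ =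
      - twist (permRep ℂ G Ω) (Matrix.toLin' D) g := by
    intro g
    rw [twist_toLin, twist_toLin, ← Equiv.sum_comp (MulAction.toPerm g), ← Finset.sum_neg_distrib]
    refine Finset.sum_congr rfl fun x _ => ?_
    simp only [MulAction.toPerm_apply, inv_smul_smul, D, Matrix.sub_apply, Matrix.transpose_apply]
    ring
  have hc : ∀ χ : G → ℂ, IsIrrCharacter G χ →
      classInner (twist (permRep ℂ G Ω) (Matrix.toLin' D)) χ = 0 := by
    intro χ hχ
    by_cases h0 : classInner (permRep ℂ G Ω).character χ = 0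
    · obtain ⟨n, σ, hσ, rfl⟩ := id hχ
      exact classInner_twist_eq_zero σ (IsCharacter.isClassFunction (IsIrrCharacter.isCharacter hχ))
        _ h0 _
    · have hr := (h χ hχ h0).2
      have hch := IsIrrCharacter.isCharacter hχ
      have h1 : classInner (twist (permRep ℂ G Ω) (Matrix.toLin' D)) χ =
          - classInner (twist (permRep ℂ G Ω) (Matrix.toLin' D)) χ := by
        rw [classInner, ← mul_neg, ← Finset.sum_neg_distrib]
        congr 1
        rw [← Equiv.sum_comp (Equiv.inv G)]
        refine Finset.sum_congr rfl fun g _ => ?_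
        simp only [Equiv.inv_apply]
        rw [htw g, IsCharacter.map_inv' hch, hr g, hr g]
        ring
      have h2 : (2 : ℂ) * classInner (twist (permRep ℂ G Ω) (Matrix.toLin' D)) χ = 0 := by
        linear_combination h1
      simpa using h2
  have h0 := eq_zero_of_coeffs hfree hD hc
  have h1 : M a b = M b a := by
    have h2 := congrFun (congrFun h0 a) b
    simp only [D, Matrix.sub_apply, Matrix.transpose_apply, Matrix.zero_apply] at h2
    exact sub_eq_zero.mp h2
  have h2 : M a b = 1 := by
    simp only [M, Matrix.of_apply]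
    rw [if_pos]
    exact ⟨1, one_smul _ _, one_smul _ _⟩
  have h3 : M b a = 1 := h1 ▸ h2
  simp only [M, Matrix.of_apply] at h3
  by_contra hcon
  rw [if_neg] at h3
  · exact zero_ne_one h3
  · rintro ⟨g, h4, h5⟩
    exact hcon ⟨g, h4, h5⟩

/-- All suborbits are self-paired iff the permutation character is multiplicity-free with real
constituents. -/
theorem selfPaired_iff :
    (∀ a b : Ω, ∃ g : G, g • a = b ∧ g • b = a) ↔
    ∀ χ : G → ℂ, IsIrrCharacter G χ → classInner (permRep ℂ G Ω).character χ ≠ 0 →
      classInner (permRep ℂ G Ω).character χ = 1 ∧ ∀ g : G, conj (χ g) = χ g := by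
  constructor
  · intro hsw χ hχ h0
    obtain ⟨n, σ, hσ, rfl⟩ := id hχ
    have h1 := multFree_of_comm hσ (permRep ℂ G Ω) (comm_of_swap hsw)
    have h2 : classInner (permRep ℂ G Ω).character σ.character = 1 := h1.resolve_left h0
    exact ⟨h2, fun g => real_of_swap hsw hσ hχ h2 g⟩
  · exact swap_of_real

end Cfsg.Agent.Lib.Perm.CentRing
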