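import Mathlib
import Cfsg.Prelude.Def_Perm
import Cfsg.Agent.Lib.Perm.CentRing2
import Cfsg.Agent.Lib.Char.Integral
import Cfsg.Agent.Lib.Char.PermChar
import Cfsg.Agent.Lib.Char.Burnside

/-!
Divisibility of subdegrees by common divisors of degrees of constituents.
-/

set_option autoImplicit false
set_option linter.style.haveILetI false

namespace Cfsg.Agent.Lib.Perm.CentRing

universe u v

open Cfsg (classInner IsIrrCharacter IsCharacter IrrCharacter IsClassFunction permRep)
open Cfsg.Agent.Lib.Char
open scoped ComplexConjugate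
open Module

variable {G : Type u} [Group G] [Fintype G]

section Abstract

variable {V : Type v} [AddCommGroup V] [Module ℂ V] [FiniteDimensional ℂ V]

theorem character_one_eq (ρ : Representation ℂ G V) : ρ.character 1 = (finrank ℂ V : ℂ) := by
  simp [Representation.character]

/-- Inner products of a subrepresentation with an irreducible character are bounded by those of
the whole representation, in the sense that non-vanishing passes upward. -/
theorem classInner_ne_zero_of_sub (ρ : Representation ℂ G V) (E : Subrepresentation ρ)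
    {χ : G → ℂ} (hχ : IsIrrCharacter G χ)
    (h : classInner E.toRepresentation.character χ ≠ 0) : classInner ρ.character χ ≠ 0 := by
  obtain ⟨n, σ, hσ, rfl⟩ := hχ
  obtain ⟨W, hW⟩ := exists_compl_subrep ρ E
  rw [character_of_isCompl ρ E W hW, classInner_add_left,
    classInner_character σ E.toRepresentation, classInner_character σ W.toRepresentation]
  rw [classInner_character σ E.toRepresentation] at h
  have h1 : finrank ℂ (Representation.IntertwiningMap σ E.toRepresentation) ≠ 0 := by
    intro h2
    rw [h2] at h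
    simp at h
  intro h2
  have h3 : finrank ℂ (Representation.IntertwiningMap σ E.toRepresentation) +
      finrank ℂ (Representation.IntertwiningMap σ W.toRepresentation) = 0 := by
    exact_mod_cast h2
  omega

theorem dvd_finrank_of_constituents (f : ℕ) (τ : Representation ℂ G V)
    (hf : ∀ χ : G → ℂ, IsIrrCharacter G χ → classInner τ.character χ ≠ 0 →
      ∃ m : ℕ, χ 1 = (f : ℂ) * m) : f ∣ finrank ℂ V := by
  refine rep_induction (P := fun V _ _ _ τ => (∀ χ : G → ℂ, IsIrrCharacter G χ →
      classInner τ.character χ ≠ 0 → ∃ m : ℕ, χ 1 = (f : ℂ) * m) → f ∣ finrank ℂ V) ?_ ?_ ?_ V τ hf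
  · intro V _ _ _ τ hV _
    rw [finrank_zero_of_subsingleton]
    exact dvd_zero f
  · intro V _ _ _ τ hτ h
    have hirr : IsIrrCharacter G τ.character := isIrrCharacter_character τ hτ
    obtain ⟨m, hm⟩ := h _ hirr (by rw [classInner_irr_self hirr]; exact one_ne_zero)
    rw [character_one_eq] at hm
    have h1 : finrank ℂ V = f * m := by exact_mod_cast hm
    exact ⟨m, h1⟩
  · intro V _ _ _ τ U W hc hU hW h
    have h1 := hU (fun χ hχ h0 => h χ hχ (classInner_ne_zero_of_sub τ U hχ h0))
    have h2 := hW (fun χ hχ h0 => h χ hχ (classInner_ne_zero_of_sub τ W hχ h0))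
    have h3 := Submodule.finrank_add_eq_of_isCompl hc
    rw [← h3]
    exact dvd_add h1 h2

/-- The trace of a commuting operator with integral eigenvalues. -/
theorem trace_eq_mul_integral (f : ℕ) (ρ : Representation ℂ G V)
    (hf : ∀ χ : G → ℂ, IsIrrCharacter G χ → classInner ρ.character χ ≠ 0 →
      ∃ m : ℕ, χ 1 = (f : ℂ) * m)
    (A : Module.End ℂ V) (hA : ∀ g v, A (ρ g v) = ρ g (A v))
    (hint : ∀ μ : ℂ, A.HasEigenvalue μ → IsIntegral ℤ μ) :
    ∃ α : ℂ, IsIntegral ℤ α ∧ LinearMap.trace ℂ V A = (f : ℂ) * α := by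
  classical
  let E : ℂ → Subrepresentation ρ := fun μ =>
    { toSubmodule := A.maxGenEigenspace μ
      apply_mem_toSubmodule := by
        intro g v hv
        rw [Module.End.mem_maxGenEigenspace] at hv ⊢
        obtain ⟨k, hk⟩ := hv
        refine ⟨k, ?_⟩
        have hc : Commute (A - μ • 1) (ρ g) := by
          ext w
          simp only [Module.End.mul_apply, LinearMap.sub_apply, LinearMap.smul_apply,
            Module.End.one_apply, hA, map_sub, map_smul]
        have h1 := (hc.pow_left k).eq
        have h2 := LinearMap.congr_fun h1 v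
        simp only [Module.End.mul_apply] at h2
        rw [h2, hk, map_zero] }
  have hdvd : ∀ μ : ℂ, f ∣ finrank ℂ (A.maxGenEigenspace μ) := by
    intro μ
    exact dvd_finrank_of_constituents f (E μ).toRepresentation
      (fun χ hχ h0 => hf χ hχ (classInner_ne_zero_of_sub ρ (E μ) hχ h0))
  choose k hk using hdvd
  refine ⟨∑ μ ∈ A.charpoly.roots.toFinset, (k μ : ℂ) * μ, ?_, ?_⟩
  · apply IsIntegral.sum
    intro μ hμ
    apply IsIntegral.mul (isIntegral_natCast _)
    apply hint
    rw [Module.End.hasEigenvalue_iff_isRoot_charpoly]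
    have h1 := (Multiset.mem_toFinset.mp hμ)
    exact (Polynomial.mem_roots'.mp h1).2
  · rw [Module.End.trace_eq_sum_roots_charpoly_of_splits (IsAlgClosed.splits _),
      Finset.sum_multiset_count, Finset.mul_sum]
    refine Finset.sum_congr rfl fun μ _ => ?_
    rw [Polynomial.count_roots, ← LinearMap.finrank_maxGenEigenspace_eq, hk μ]
    push_cast
    simp only [nsmul_eq_mul]
    push_cast
    ring

end Abstract

section Concrete

variable {Ω : Type v} [Fintype Ω] [MulAction G Ω]

/-- The orbital relation of the pair `(a, b)`. -/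
def Orb (G : Type u) [Group G] [MulAction G Ω] (a b x y : Ω) : Prop := ∃ g : G, g • a = x ∧ g • b = y

omit [Fintype G] [Fintype Ω] in
theorem orb_smul (a b x y : Ω) (h : G) : Orb G a b (h • x) (h • y) ↔ Orb G a b x y := by
  constructor
  · rintro ⟨k, h1, h2⟩
    refine ⟨h⁻¹ * k, ?_, ?_⟩
    · rw [mul_smul, h1, inv_smul_smul]
    · rw [mul_smul, h2, inv_smul_smul]
  · rintro ⟨k, h1, h2⟩
    refine ⟨h * k, ?_, ?_⟩
    · rw [mul_smul, h1]
    · rw [mul_smul, h2]

open Classical in
/-- The orbital matrix with integer entries. -/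
noncomputable def orbZ (G : Type u) [Group G] [MulAction G Ω] (a b : Ω) : Matrix Ω Ω ℤ :=
  Matrix.of fun x y => if Orb G a b x y then 1 else 0

/-- The orbital matrix with complex entries. -/
noncomputable def orbC (G : Type u) [Group G] [MulAction G Ω] (a b : Ω) : Matrix Ω Ω ℂ :=
  (orbZ G a b).map (Int.castRingHom ℂ)

open Classical in
omit [Fintype G] [Fintype Ω] in
theorem orbC_apply (a b x y : Ω) : orbC G a b x y = if Orb G a b x y then 1 else 0 := by
  simp only [orbC, orbZ, Matrix.map_apply, Matrix.of_apply]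
  split_ifs <;> simp

omit [Fintype G] [Fintype Ω] in
theorem inv_orbC (a b : Ω) : Inv G (orbC G a b) := by
  intro g x y
  classical
  rw [orbC_apply, orbC_apply]
  simp only [orb_smul]

open Classical in
omit [Fintype G] [MulAction G Ω] in
theorem sum_ite_mem (S : Set Ω) : ∑ y, (if y ∈ S then (1 : ℂ) else 0) = (S.ncard : ℂ) := by
  rw [Finset.sum_boole, Set.ncard_eq_toFinset_card']
  congr 2
  ext y
  simp

/-- The rows of the orbital matrix have constant sum. -/
theorem sum_row [IsPretransitive' : MulAction.IsPretransitive G Ω] (a b x : Ω) :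
    ∑ y, orbC G a b x y = (Nat.card (MulAction.orbit (MulAction.stabilizer G a) b) : ℂ) := by
  classical
  obtain ⟨h, rfl⟩ := MulAction.exists_smul_eq G a x
  have h1 : ∑ y, orbC G a b (h • a) y =
      ∑ y, (if y ∈ (fun z => h • z) '' MulAction.orbit (MulAction.stabilizer G a) b then (1 : ℂ)
        else 0) := by
    refine Finset.sum_congr rfl fun y _ => ?_
    rw [orbC_apply]
    congr 1
    apply propext
    constructor
    · rintro ⟨k, h2, h3⟩
      have h4 : h⁻¹ * k ∈ MulAction.stabilizer G a := by
        change (h⁻¹ * k) • a = a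
        rw [mul_smul, h2, inv_smul_smul]
      refine ⟨(⟨h⁻¹ * k, h4⟩ : MulAction.stabilizer G a) • b, ⟨_, rfl⟩, ?_⟩
      change h • (h⁻¹ * k) • b = y
      rw [mul_smul, smul_inv_smul, h3]
    · rintro ⟨_, ⟨k, rfl⟩, rfl⟩
      refine ⟨h * k, ?_, ?_⟩
      · rw [mul_smul]
        have : (k : G) • a = a := k.2
        rw [this]
      · change (h * k) • b = h • ((k : G) • b)
        rw [mul_smul]
  rw [h1, sum_ite_mem, Set.ncard_image_of_injective _ (MulAction.injective h), Nat.card_coe_set_eq]

/-- The columns of the orbital matrix have constant sum. -/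
theorem sum_col [MulAction.IsPretransitive G Ω] (a b y z : Ω) :
    ∑ x, orbC G a b x y = ∑ x, orbC G a b x z := by
  obtain ⟨h, rfl⟩ := MulAction.exists_smul_eq G y z
  rw [← Equiv.sum_comp (MulAction.toPerm h) (fun x => orbC G a b x (h • y))]
  refine Finset.sum_congr rfl fun x _ => ?_
  simp only [MulAction.toPerm_apply]
  exact (inv_orbC a b h x y).symm

/-- Eigenvalues of an orbital operator are algebraic integers. -/
theorem orbC_eigenvalue [DecidableEq Ω] (a b : Ω) (μ : ℂ) (v : Ω → ℂ) (hv : v ≠ 0)
    (h : Matrix.toLin' (orbC G a b) v = μ • v) : IsIntegral ℤ μ := by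
  classical
  let M₀ := orbZ G a b
  let P := M₀.charpoly
  have hP : Polynomial.aeval M₀ P = 0 := Matrix.aeval_self_charpoly M₀
  have hM : Polynomial.aeval (orbC G a b) (P.map (algebraMap ℤ ℂ)) = 0 := by
    rw [Polynomial.aeval_map_algebraMap]
    have h1 := Polynomial.aeval_algHom_apply ((Int.castRingHom ℂ).mapMatrix (m := Ω)).toIntAlgHom
      M₀ P
    rw [hP, map_zero] at h1
    exact h1
  have hA : Polynomial.aeval (Matrix.toLin' (orbC G a b)) (P.map (algebraMap ℤ ℂ)) = 0 := by
    have h1 := Polynomial.aeval_algHom_apply (Matrix.toLinAlgEquiv' (R := ℂ) (n := Ω)).toAlgHom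
      (orbC G a b) (P.map (algebraMap ℤ ℂ))
    rw [hM, map_zero] at h1
    exact h1
  have hev : Module.End.HasEigenvector (Matrix.toLin' (orbC G a b)) μ v :=
    ⟨Module.End.mem_eigenspace_iff.mpr h, hv⟩
  have h2 := Module.End.aeval_apply_of_hasEigenvector (p := P.map (algebraMap ℤ ℂ)) hev
  rw [hA, LinearMap.zero_apply] at h2
  have h3 : Polynomial.eval μ (P.map (algebraMap ℤ ℂ)) = 0 := by
    rcases smul_eq_zero.mp h2.symm with h4 | h4
    · exact h4
    · exact absurd h4 hv
  refine ⟨P, Matrix.charpoly_monic M₀, ?_⟩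
  rw [Polynomial.eval₂_eq_eval_map]
  exact h3

theorem isCompl_permConstants_permSumZero [Nonempty Ω] :
    IsCompl (Cfsg.permConstants ℂ G Ω).toSubmodule (Cfsg.permSumZero ℂ G Ω).toSubmodule := by
  have hN : (Fintype.card Ω : ℂ) ≠ 0 := by
    have : Fintype.card Ω ≠ 0 := Fintype.card_ne_zero
    exact_mod_cast this
  rw [isCompl_iff]
  constructor
  · rw [Submodule.disjoint_def]
    intro v hv hv'
    obtain ⟨c, rfl⟩ := Submodule.mem_span_singleton.mp hv
    have h1 : ∑ x : Ω, (c • (fun _ : Ω => (1 : ℂ))) x = 0 := hv'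
    simp only [Pi.smul_apply, smul_eq_mul, mul_one, Finset.sum_const, Finset.card_univ,
      nsmul_eq_mul] at h1
    have h2 : c = 0 := by
      rcases mul_eq_zero.mp h1 with h | h
      · exact absurd h hN
      · exact h
    rw [h2, zero_smul]
  · rw [codisjoint_iff, eq_top_iff]
    intro v _
    let s : ℂ := (∑ x, v x) / (Fintype.card Ω : ℂ)
    have h1 : s • (fun _ : Ω => (1 : ℂ)) ∈ (Cfsg.permConstants ℂ G Ω).toSubmodule :=
      Submodule.smul_mem _ s (Submodule.mem_span_singleton_self _)
    have h2 : v - s • (fun _ : Ω => (1 : ℂ)) ∈ (Cfsg.permSumZero ℂ G Ω).toSubmodule := by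
      change ∑ x, (v - s • (fun _ : Ω => (1 : ℂ))) x = 0
      simp only [Pi.sub_apply, Pi.smul_apply, smul_eq_mul, mul_one, Finset.sum_sub_distrib,
        Finset.sum_const, Finset.card_univ, nsmul_eq_mul, s]
      field_simp
      ring
    have h3 : v = s • (fun _ : Ω => (1 : ℂ)) + (v - s • (fun _ : Ω => (1 : ℂ))) := by abel
    rw [h3]
    exact Submodule.add_mem_sup h1 h2

theorem permConstants_character [Nonempty Ω] :
    (Cfsg.permConstants ℂ G Ω).toRepresentation.character = fun _ => 1 := by
  funext g
  simp only [Representation.character]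
  have h1 : (Cfsg.permConstants ℂ G Ω).toRepresentation g = 1 := by
    ext1 ⟨v, hv⟩
    apply Subtype.ext
    obtain ⟨c, rfl⟩ := Submodule.mem_span_singleton.mp hv
    rfl
  rw [h1, LinearMap.trace_one]
  have h2 : finrank ℂ (Cfsg.permConstants ℂ G Ω).toSubmodule = 1 := by
    apply finrank_span_singleton
    intro h
    obtain ⟨x⟩ := ‹Nonempty Ω›
    have := congrFun h x
    simp at this
  rw [h2]
  simp

theorem classInner_perm_one [MulAction.IsPretransitive G Ω] [Nonempty Ω] :
    classInner (fun g : G => (Nat.card (MulAction.fixedBy Ω g) : ℂ)) (fun _ => 1) = 1 := by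
  have hG := card_ne_zero_complex G
  have h1 := sum_fixedBy_eq_card_orbits (G := G) (X := Ω)
  have h2 : Nat.card (MulAction.orbitRel.Quotient G Ω) = 1 := by
    haveI : Subsingleton (MulAction.orbitRel.Quotient G Ω) :=
      (MulAction.pretransitive_iff_subsingleton_quotient G Ω).mp inferInstance
    haveI : Nonempty (MulAction.orbitRel.Quotient G Ω) := by
      obtain ⟨x⟩ := ‹Nonempty Ω›
      exact ⟨Quotient.mk _ x⟩
    exact Nat.card_unique
  rw [h2] at h1
  simp only [classInner, map_one, mul_one]
  rw [h1]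
  simp only [Nat.cast_one, one_mul]
  exact inv_mul_cancel₀ hG

/-- A common divisor of the degrees of the non-principal constituents divides every non-trivial
subdegree. -/
theorem subdegree_dvd [MulAction.IsPretransitive G Ω] (f : ℕ)
    (hf : ∀ χ : G → ℂ, IsIrrCharacter G χ → χ ≠ (fun _ => 1) →
      classInner (fun g : G => (Nat.card (MulAction.fixedBy Ω g) : ℂ)) χ ≠ 0 →
      ∃ m : ℕ, χ 1 = (f : ℂ) * m) (a b : Ω) (hab : b ≠ a) :
    f ∣ Nat.card (MulAction.orbit (MulAction.stabilizer G a) b) := by
  classical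
  haveI : Nonempty Ω := ⟨a⟩
  have hπ : (fun g : G => (Nat.card (MulAction.fixedBy Ω g) : ℂ)) = (permRep ℂ G Ω).character := by
    funext g
    exact (permRep_character g).symm
  have hcompl := isCompl_permConstants_permSumZero (G := G) (Ω := Ω)
  have hch := character_of_isCompl _ _ _ hcompl
  rw [permConstants_character, ← hπ] at hch
  have hone : IsIrrCharacter G (fun _ : G => (1 : ℂ)) := isIrrCharacter_one
  have hW0 : classInner (Cfsg.permSumZero ℂ G Ω).toRepresentation.character (fun _ => 1) = 0 := by
    have h1 := classInner_perm_one (G := G) (Ω := Ω)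
    rw [hch, classInner_add_left, classInner_irr_self hone] at h1
    simpa using h1
  have hfW : ∀ χ : G → ℂ, IsIrrCharacter G χ →
      classInner (Cfsg.permSumZero ℂ G Ω).toRepresentation.character χ ≠ 0 →
      ∃ m : ℕ, χ 1 = (f : ℂ) * m := by
    intro χ hχ h0
    have hne : χ ≠ (fun _ => 1) := by
      rintro rfl
      exact h0 hW0
    refine hf χ hχ hne ?_
    rw [hπ]
    exact classInner_ne_zero_of_sub _ _ hχ h0
  let A : Module.End ℂ (Ω → ℂ) := Matrix.toLin' (orbC G a b)
  have hAcomm : ∀ g v, A (permRep ℂ G Ω g v) = permRep ℂ G Ω g (A v) :=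
    fun g v => comm_of_inv (inv_orbC a b) g v
  have hAW : Set.MapsTo A (Cfsg.permSumZero ℂ G Ω).toSubmodule
      (Cfsg.permSumZero ℂ G Ω).toSubmodule := by
    intro v hv
    have hv' : ∑ x, v x = 0 := hv
    change ∑ x, A v x = 0
    have h1 : ∀ x, A v x = ∑ y, orbC G a b x y * v y := fun x => rfl
    simp only [h1]
    rw [Finset.sum_comm]
    have h2 : ∀ y, ∑ x, orbC G a b x y * v y = (∑ x, orbC G a b x b) * v y := by
      intro y
      rw [← Finset.sum_mul, sum_col a b y b]
    simp only [h2]
    rw [← Finset.mul_sum, hv', mul_zero]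
  have hAU : Set.MapsTo A (Cfsg.permConstants ℂ G Ω).toSubmodule
      (Cfsg.permConstants ℂ G Ω).toSubmodule := by
    intro v hv
    obtain ⟨c, rfl⟩ := Submodule.mem_span_singleton.mp hv
    rw [map_smul]
    apply Submodule.smul_mem
    have h1 : A (fun _ => 1) = (Nat.card (MulAction.orbit (MulAction.stabilizer G a) b) : ℂ) •
        (fun _ => (1 : ℂ)) := by
      funext x
      have h2 : A (fun _ => 1) x = ∑ y, orbC G a b x y * 1 := rfl
      rw [h2]
      simp only [mul_one, sum_row, Pi.smul_apply, smul_eq_mul]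
    rw [h1]
    exact Submodule.smul_mem _ _ (Submodule.mem_span_singleton_self _)
  have htr := trace_of_isCompl A _ _ hcompl hAU hAW
  have htr0 : LinearMap.trace ℂ (Ω → ℂ) A = 0 := by
    rw [Matrix.trace_toLin'_eq]
    apply Finset.sum_eq_zero
    intro x _
    simp only [Matrix.diag]
    rw [orbC_apply, if_neg]
    rintro ⟨g, h1, h2⟩
    exact hab (MulAction.injective g (h2.trans h1.symm))
  have htrU : LinearMap.trace ℂ _ (A.restrict hAU) =
      (Nat.card (MulAction.orbit (MulAction.stabilizer G a) b) : ℂ) := by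
    have h1 : A.restrict hAU = (Nat.card (MulAction.orbit (MulAction.stabilizer G a) b) : ℂ) • 1 := by
      ext1 ⟨v, hv⟩
      apply Subtype.ext
      obtain ⟨c, rfl⟩ := Submodule.mem_span_singleton.mp hv
      funext x
      have h2 : A (c • fun _ => 1) x = ∑ y, orbC G a b x y * (c * 1) := rfl
      change A (c • fun _ => 1) x = _ * (c * 1)
      rw [h2, ← Finset.sum_mul, sum_row]
    rw [h1, map_smul, LinearMap.trace_one]
    have h2 : finrank ℂ (Cfsg.permConstants ℂ G Ω).toSubmodule = 1 := by
      apply finrank_span_singleton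
      intro h
      obtain ⟨x⟩ := ‹Nonempty Ω›
      have := congrFun h x
      simp at this
    rw [h2]
    simp
  obtain ⟨α, hα, hαtr⟩ := trace_eq_mul_integral f (Cfsg.permSumZero ℂ G Ω).toRepresentation hfW
    (A.restrict hAW)
    (by
      rintro g ⟨v, hv⟩
      apply Subtype.ext
      exact hAcomm g v)
    (by
      intro μ hμ
      obtain ⟨v, hv⟩ := hμ.exists_hasEigenvector
      have hv1 := Module.End.mem_eigenspace_iff.mp hv.1
      have hv2 : (v : Ω → ℂ) ≠ 0 := fun h => hv.2 (Subtype.ext h)
      apply orbC_eigenvalue (G := G) a b μ (v : Ω → ℂ) hv2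
      exact congrArg Subtype.val hv1)
  rw [htr0, htrU, hαtr] at htr
  by_cases hf0 : f = 0
  · subst hf0
    have h1 : (Nat.card (MulAction.orbit (MulAction.stabilizer G a) b) : ℂ) = 0 := by
      simpa using htr.symm
    have h2 : Nat.card (MulAction.orbit (MulAction.stabilizer G a) b) = 0 := by
      exact_mod_cast h1
    rw [h2]
  · apply nat_dvd_of_isIntegral_div hf0
    have hf' : (f : ℂ) ≠ 0 := by exact_mod_cast hf0
    have h1 : (Nat.card (MulAction.orbit (MulAction.stabilizer G a) b) : ℂ) / (f : ℂ) = -α := by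
      field_simp
      linear_combination -htr
    rw [h1]
    exact hα.neg

end Concrete

end Cfsg.Agent.Lib.Perm.CentRing
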