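import Mathlib
import Cfsg.Prelude.Def_Perm
import Cfsg.Agent.Lib.Perm.CentRing3
import Cfsg.Agent.Lib.Char.Induced
import Cfsg.Agent.Lib.Char.Constituent

/-!
Numerical relations among the rank, the degree, the multiplicities and the subdegrees of a
transitive permutation group.
-/

set_option autoImplicit false
set_option linter.style.haveILetI false

namespace Cfsg.Agent.Lib.Perm.CentRing

universe u v

open Cfsg (classInner IsIrrCharacter IsCharacter IrrCharacter IsClassFunction permRep indFun)
open Cfsg.Agent.Lib.Char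
open scoped ComplexConjugate
open Module

variable {G : Type u} [Group G] [Fintype G] {Ω : Type v} [Fintype Ω] [MulAction G Ω]

/-- The permutation character as a function. -/
noncomputable abbrev permFn (G : Type u) [Group G] (Ω : Type v) [MulAction G Ω] : G → ℂ :=
  fun g => (Nat.card (MulAction.fixedBy Ω g) : ℂ)

theorem permFn_eq : permFn G Ω = (permRep ℂ G Ω).character := by
  classical
  funext g
  exact (permRep_character (G := G) g).symm

theorem permFn_isCharacter : IsCharacter G (permFn G Ω) := by
  rw [permFn_eq]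
  exact isCharacter_character _

theorem classInner_perm_self [MulAction.IsPretransitive G Ω] (a : Ω) :
    classInner (permFn G Ω) (permFn G Ω) =
      (Nat.card (MulAction.orbitRel.Quotient (MulAction.stabilizer G a) Ω) : ℂ) := by
  classical
  let H := MulAction.stabilizer G a
  haveI : Fintype H := Fintype.ofFinite _
  have h1 : permFn G Ω = indFun H (fun _ => 1) := by
    funext g
    exact indFun_one_apply_eq_fixedBy a g
  have hcl : IsClassFunction G (permFn G Ω) := IsCharacter.isClassFunction permFn_isCharacter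
  have h2 : classInner (permFn G Ω) (permFn G Ω) =
      classInner (fun _ : H => (1 : ℂ)) (fun h : H => permFn G Ω h) := by
    conv_lhs => rw [h1]
    rw [frobenius_reciprocity H _ _ (by rw [← h1]; exact hcl)]
    rw [← h1]
  rw [h2, classInner]
  have hH := card_ne_zero_complex H
  have h3 : ∀ h : H, (1 : ℂ) * conj (permFn G Ω h) = (Nat.card (MulAction.fixedBy Ω h) : ℂ) := by
    intro h
    simp only [one_mul, Complex.conj_natCast, permFn]
    rfl
  simp only [h3]
  rw [sum_fixedBy_eq_card_orbits (G := H) (X := Ω)]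
  field_simp
  rfl

/-- Multiplicities are natural numbers. -/
theorem exists_mult (χ : G → ℂ) (hχ : IsIrrCharacter G χ) :
    ∃ m : ℕ, classInner (permFn G Ω) χ = m := by
  obtain ⟨n, σ, hσ, rfl⟩ := hχ
  rw [permFn_eq]
  exact ⟨_, classInner_character σ _⟩

/-- The multiplicity of the trivial character. -/
theorem perm_data [MulAction.IsPretransitive G Ω] (a : Ω) :
    ∃ (m d : IrrCharacter G → ℕ) (one : IrrCharacter G), (one : G → ℂ) = (fun _ => 1) ∧
      (∀ χ : IrrCharacter G, classInner (permFn G Ω) (χ : G → ℂ) = m χ) ∧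
      (∀ χ : IrrCharacter G, (χ : G → ℂ) 1 = d χ) ∧
      (∀ χ : IrrCharacter G, 0 < d χ) ∧ m one = 1 ∧ d one = 1 ∧
      Nat.card (MulAction.orbitRel.Quotient (MulAction.stabilizer G a) Ω) = ∑ χ, m χ ^ 2 ∧
      Fintype.card Ω = ∑ χ, m χ * d χ := by
  classical
  haveI : Nonempty Ω := ⟨a⟩
  choose m hm using fun χ : IrrCharacter G => exists_mult (Ω := Ω) χ.1 χ.2
  refine ⟨m, fun χ => charDegree χ.1, ⟨fun _ => 1, isIrrCharacter_one⟩, rfl, hm, ?_, ?_, ?_, ?_, ?_, ?_⟩
  · intro χ
    exact map_one_eq_charDegree (IsIrrCharacter.isCharacter χ.2)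
  · intro χ
    exact charDegree_pos_of_irr χ.2
  · have h1 := hm ⟨fun _ => 1, isIrrCharacter_one⟩
    rw [classInner_perm_one] at h1
    exact_mod_cast h1.symm
  · exact charDegree_natCast (by simp)
  · have hcl : IsClassFunction G (permFn G Ω) := IsCharacter.isClassFunction permFn_isCharacter
    have h1 := classInner_eq_sum _ _ hcl hcl
    rw [classInner_perm_self a] at h1
    have h2 : ∀ χ : IrrCharacter G, classInner (permFn G Ω) (χ : G → ℂ) *
        conj (classInner (permFn G Ω) (χ : G → ℂ)) = ((m χ ^ 2 : ℕ) : ℂ) := by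
      intro χ
      rw [hm χ, Complex.conj_natCast]
      push_cast
      ring
    simp only [h2] at h1
    exact_mod_cast h1
  · have hcl : IsClassFunction G (permFn G Ω) := IsCharacter.isClassFunction permFn_isCharacter
    have h1 := congrFun (classFunction_eq_sum _ hcl) 1
    simp only [Finset.sum_apply, Pi.smul_apply, smul_eq_mul] at h1
    have h2 : permFn G Ω 1 = (Fintype.card Ω : ℂ) := by
      simp only [permFn]
      rw [Nat.card_eq_fintype_card, Fintype.card_congr (Equiv.subtypeUnivEquiv (by
        intro x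
        simp))]
    rw [h2] at h1
    have h3 : ∀ χ : IrrCharacter G, classInner (permFn G Ω) (χ : G → ℂ) * (χ : G → ℂ) 1 =
        ((m χ * charDegree χ.1 : ℕ) : ℂ) := by
      intro χ
      rw [hm χ, map_one_eq_charDegree (IsIrrCharacter.isCharacter χ.2)]
      push_cast
      ring
    simp only [h3] at h1
    exact_mod_cast h1

/-- The subdegree estimate: if `f` divides all non-trivial subdegrees then
`(rank - 1) * f ≤ degree - 1`, with equality only if all non-trivial subdegrees equal `f`. -/
theorem sum_subdegrees (a : Ω) (f : ℕ)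
    (hf : ∀ b : Ω, b ≠ a → f ∣ Nat.card (MulAction.orbit (MulAction.stabilizer G a) b)) :
    (Nat.card (MulAction.orbitRel.Quotient (MulAction.stabilizer G a) Ω) - 1) * f ≤
        Fintype.card Ω - 1 ∧
      ((Nat.card (MulAction.orbitRel.Quotient (MulAction.stabilizer G a) Ω) - 1) * f =
          Fintype.card Ω - 1 →
        ∀ b : Ω, b ≠ a → Nat.card (MulAction.orbit (MulAction.stabilizer G a) b) = f) := by
  classical
  let H := MulAction.stabilizer G a
  letI : Fintype (MulAction.orbitRel.Quotient H Ω) := Fintype.ofFinite _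
  have h1 : Fintype.card Ω = ∑ ω : MulAction.orbitRel.Quotient H Ω, Nat.card ω.orbit := by
    rw [← Nat.card_eq_fintype_card, Nat.card_congr (MulAction.selfEquivSigmaOrbits' H Ω),
      Nat.card_sigma]
  let ω₀ : MulAction.orbitRel.Quotient H Ω := Quotient.mk'' a
  have hfix : MulAction.orbit H a = {a} := by
    ext x
    constructor
    · rintro ⟨h, rfl⟩
      exact h.2
    · rintro rfl
      exact MulAction.mem_orbit_self _
  have h2 : Nat.card ω₀.orbit = 1 := by
    rw [MulAction.orbitRel.Quotient.orbit_mk a, hfix]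
    simp
  have hkey : ∀ ω : MulAction.orbitRel.Quotient H Ω, ω ≠ ω₀ →
      f ≤ Nat.card ω.orbit := by
    intro ω hω
    have h3 := MulAction.orbitRel.Quotient.orbit_eq_orbit_out ω Quotient.out_eq'
    have h4 : ω.out ≠ a := by
      intro h5
      apply hω
      have h6 : ω = Quotient.mk'' ω.out := (Quotient.out_eq' ω).symm
      rw [h6, h5]
    rw [h3]
    have h5 := hf _ h4
    exact Nat.le_of_dvd (Nat.card_pos_iff.mpr ⟨⟨⟨_, MulAction.mem_orbit_self _⟩⟩, inferInstance⟩) h5
  have h3 := Finset.add_sum_erase Finset.univ (fun ω : MulAction.orbitRel.Quotient H Ω =>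
    Nat.card ω.orbit) (Finset.mem_univ ω₀)
  simp only [h2] at h3
  have h4 : Fintype.card Ω - 1 = ∑ ω ∈ Finset.univ.erase ω₀, Nat.card ω.orbit := by
    rw [h1, ← h3]
    omega
  have h5 : (Finset.univ.erase ω₀).card = Nat.card (MulAction.orbitRel.Quotient H Ω) - 1 := by
    rw [Finset.card_erase_of_mem (Finset.mem_univ _), Finset.card_univ, Nat.card_eq_fintype_card]
  have h6 : (Nat.card (MulAction.orbitRel.Quotient H Ω) - 1) * f =
      ∑ _ω ∈ Finset.univ.erase ω₀, f := by
    rw [Finset.sum_const, h5, smul_eq_mul]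
  constructor
  · change (Nat.card (MulAction.orbitRel.Quotient H Ω) - 1) * f ≤ _
    rw [h6, h4]
    exact Finset.sum_le_sum fun ω hω => hkey ω (Finset.ne_of_mem_erase hω)
  · intro heq b hb
    change (Nat.card (MulAction.orbitRel.Quotient H Ω) - 1) * f = _ at heq
    rw [h6, h4] at heq
    have h7 := (Finset.sum_eq_sum_iff_of_le
      (fun ω hω => hkey ω (Finset.ne_of_mem_erase hω))).mp heq
    have hb' : (Quotient.mk'' b : MulAction.orbitRel.Quotient H Ω) ≠ ω₀ := by
      intro h8
      have h9 : b ∈ ω₀.orbit := by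
        rw [← h8]
        exact MulAction.orbitRel.Quotient.mem_orbit.mpr rfl
      rw [MulAction.orbitRel.Quotient.orbit_mk a, hfix] at h9
      exact hb h9
    have h10 := h7 _ (Finset.mem_erase.mpr ⟨hb', Finset.mem_univ _⟩)
    rw [MulAction.orbitRel.Quotient.orbit_mk b] at h10
    exact h10.symm

end Cfsg.Agent.Lib.Perm.CentRing
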