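import Mathlib

/-!
Homogeneous permutation groups: the divisibility argument for going from `k` to `k-1`.
-/

set_option autoImplicit false
set_option linter.style.haveILetI false

namespace Cfsg.Agent.Lib.Perm.Homog

open Finset
open scoped Pointwise

/-- A consequence of Lucas' theorem. -/
theorem choose_aux (p : ℕ) [Fact p.Prime] (m : ℕ) (e : ℕ) :
    (p ^ e * m + p ^ e - 1).choose (p ^ e) ≡ m [MOD p] := by
  have hp : 0 < p := (Fact.out : p.Prime).pos
  induction e with
  | zero =>
    simp only [pow_zero, one_mul, Nat.add_sub_cancel, Nat.choose_one_right]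
    exact Nat.ModEq.refl _
  | succ e ih =>
    have hpe : 0 < p ^ e := pow_pos hp e
    set x := p ^ e * m + p ^ e - 1 with hx
    have h1 : p ^ (e + 1) * m + p ^ (e + 1) - 1 = (p - 1) + p * x := by
      have h2 : p ^ e * m + p ^ e = x + 1 := by omega
      have h3 : p ^ (e + 1) * m + p ^ (e + 1) = p * (p ^ e * m + p ^ e) := by ring
      rw [h3, h2]
      have h4 : p * (x + 1) = p * x + p := by ring
      rw [h4]
      omega
    have hmod : ((p - 1) + p * x) % p = p - 1 := by
      rw [Nat.add_mul_mod_self_left, Nat.mod_eq_of_lt (by omega)]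
    have hdiv : ((p - 1) + p * x) / p = x := by
      rw [Nat.add_mul_div_left _ _ hp, Nat.div_eq_of_lt (by omega), zero_add]
    have hk1 : p ^ (e + 1) % p = 0 := by
      rw [pow_succ, Nat.mul_mod_left]
    have hk2 : p ^ (e + 1) / p = p ^ e := by
      rw [pow_succ, Nat.mul_div_cancel _ hp]
    have h5 := Choose.choose_modEq_choose_mod_mul_choose_div_nat (p := p) (n := (p - 1) + p * x) (k := p ^ (e + 1))
    rw [h1]
    refine h5.trans ?_
    rw [hmod, hdiv, hk1, hk2, Nat.choose_zero_right, one_mul]
    exact ih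

variable {α : Type*} [Fintype α] [DecidableEq α]

/-- Double counting of flags. -/
theorem flag_count (j : ℕ) (F : Finset α → Prop) [DecidablePred F] (hF : ∀ D, F D → D.card = j) (a : ℕ)
    (ha : ∀ K : Finset α, K.card = j + 1 → (K.filter (fun x => F (K.erase x))).card = a) (U : Finset α)
    (hU : j + 1 ≤ U.card) :
    (U.powerset.filter F).card * (j + 1) = U.card.choose j * a := by
  have h1 : ((U.powerset.filter F).sigma (fun D => U \ D)).card =
      ((U.powersetCard (j + 1)).sigma (fun K => K.filter (fun x => F (K.erase x)))).card := by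
    apply Finset.card_bij' (fun p _ => (⟨insert p.2 p.1, p.2⟩ : Σ _ : Finset α, α))
      (fun p _ => (⟨p.1.erase p.2, p.2⟩ : Σ _ : Finset α, α))
    · rintro ⟨D, x⟩ hp
      simp only [Finset.mem_sigma, Finset.mem_filter, Finset.mem_powerset, Finset.mem_sdiff] at hp
      obtain ⟨⟨h1, h2⟩, h3, h4⟩ := hp
      simp only [Finset.mem_sigma, Finset.mem_powersetCard, Finset.mem_filter, Finset.mem_insert, true_or, true_and]
      refine ⟨⟨Finset.insert_subset h3 h1, ?_⟩, ?_⟩
      · rw [Finset.card_insert_of_notMem h4, hF D h2]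
      · rw [Finset.erase_insert h4]
        exact h2
    · rintro ⟨K, x⟩ hp
      simp only [Finset.mem_sigma, Finset.mem_powersetCard, Finset.mem_filter] at hp
      obtain ⟨⟨h1, h2⟩, h3, h4⟩ := hp
      simp only [Finset.mem_sigma, Finset.mem_filter, Finset.mem_powerset, Finset.mem_sdiff]
      refine ⟨⟨(Finset.erase_subset _ _).trans h1, h4⟩, h1 h3, Finset.notMem_erase _ _⟩
    · rintro ⟨D, x⟩ hp
      simp only [Finset.mem_sigma, Finset.mem_filter, Finset.mem_powerset, Finset.mem_sdiff] at hp
      simp only [Finset.erase_insert hp.2.2]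
    · rintro ⟨K, x⟩ hp
      simp only [Finset.mem_sigma, Finset.mem_powersetCard, Finset.mem_filter] at hp
      simp only [Finset.insert_erase hp.2.1]
  rw [Finset.card_sigma, Finset.card_sigma] at h1
  have h2 : ∑ D ∈ U.powerset.filter F, (U \ D).card = (U.powerset.filter F).card * (U.card - j) := by
    rw [Finset.sum_const_nat]
    intro D hD
    simp only [Finset.mem_filter, Finset.mem_powerset] at hD
    rw [Finset.card_sdiff_of_subset hD.1, hF D hD.2]
  have h3 : ∑ K ∈ U.powersetCard (j + 1), (K.filter (fun x => F (K.erase x))).card = U.card.choose (j + 1) * a := by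
    rw [Finset.sum_const_nat (m := a), Finset.card_powersetCard]
    intro K hK
    exact ha K (Finset.mem_powersetCard.mp hK).2
  rw [h2, h3] at h1
  have h4 := Nat.choose_succ_right_eq U.card j
  have h5 : 0 < U.card - j := by omega
  apply Nat.eq_of_mul_eq_mul_right h5
  calc (U.powerset.filter F).card * (j + 1) * (U.card - j)
      = ((U.powerset.filter F).card * (U.card - j)) * (j + 1) := by ring
    _ = U.card.choose (j + 1) * a * (j + 1) := by rw [h1]
    _ = (U.card.choose (j + 1) * (j + 1)) * a := by ring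
    _ = U.card.choose j * (U.card - j) * a := by rw [h4]
    _ = U.card.choose j * a * (U.card - j) := by ring

/-- The divisibility core. -/
theorem core (j : ℕ) (hj : 1 ≤ j) (F : Finset α → Prop) [DecidablePred F] (hF : ∀ D, F D → D.card = j) (a : ℕ)
    (ha : ∀ K : Finset α, K.card = j + 1 → (K.filter (fun x => F (K.erase x))).card = a) (ha0 : 0 < a)
    (hq : ∀ q : ℕ, IsPrimePow q → q ∣ j + 1 → j + 1 + q - 1 ≤ Fintype.card α) : j + 1 ∣ a := by
  rw [← Nat.factorization_prime_le_iff_dvd (by omega) (by omega)]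
  intro p hp
  haveI : Fact p.Prime := ⟨hp⟩
  set e := (j + 1).factorization p with he
  by_cases he0 : e = 0
  · rw [he0]
    exact Nat.zero_le _
  rw [← Nat.Prime.pow_dvd_iff_le_factorization hp (by omega)]
  set q := p ^ e with hqdef
  have hqk : q ∣ j + 1 := Nat.ordProj_dvd _ _
  have hqpp : IsPrimePow q := (isPrimePow_pow_iff he0).mpr hp.isPrimePow
  have hbound := hq q hqpp hqk
  have hqpos : 0 < q := pow_pos hp.pos _
  -- a subset of the required size
  obtain ⟨U, -, hUcard⟩ := Finset.exists_subset_card_eq (s := (Finset.univ : Finset α)) (n := j + q)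
    (by rw [Finset.card_univ]; omega)
  have hcount := flag_count j F hF a ha U (by omega)
  rw [hUcard] at hcount
  have hdvd : q ∣ (j + q).choose j * a := by
    rw [← hcount]
    exact Dvd.dvd.mul_left hqk _
  -- the binomial coefficient is prime to p
  obtain ⟨m, hm⟩ : ∃ m, j + 1 = q * m := hqk
  have hmnot : ¬ p ∣ m := by
    have h1 := Nat.not_dvd_ordCompl (n := j + 1) hp (by omega)
    have h2 : ordCompl[p] (j + 1) = m := by
      apply Nat.eq_of_mul_eq_mul_left hqpos
      rw [← hm]
      exact Nat.ordProj_mul_ordCompl_eq_self _ _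
    rwa [h2] at h1
  have hch : (j + q).choose j ≡ m [MOD p] := by
    have h1 : (j + q).choose j = (j + q).choose q := Nat.choose_symm_add
    have h2 : j + q = q * m + q - 1 := by omega
    rw [h1, h2]
    exact choose_aux p m e
  have hcop : Nat.Coprime ((j + q).choose j) p := by
    apply Nat.Coprime.symm
    rw [Nat.Prime.coprime_iff_not_dvd hp]
    intro h
    apply hmnot
    exact (Nat.ModEq.dvd_iff hch (dvd_refl p)).mp h
  have hcop2 : Nat.Coprime q ((j + q).choose j) := (hcop.symm.pow_left e)
  exact hcop2.dvd_of_dvd_mul_left hdvd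

/-- Wielandt's descent. -/
theorem homog_down {G : Type*} [Group G] [MulAction G α] (j : ℕ) (hj : 1 ≤ j)
    (hG : MulAction.IsPretransitive G (Set.powersetCard α (j + 1)))
    (hq : ∀ q : ℕ, IsPrimePow q → q ∣ j + 1 → j + 1 + q - 1 ≤ Fintype.card α) :
    MulAction.IsPretransitive G (Set.powersetCard α j) := by
  classical
  -- there are enough points
  have hn : j + 1 ≤ Fintype.card α := by
    obtain ⟨p, hp, hpd⟩ := Nat.exists_prime_and_dvd (n := j + 1) (by omega)
    have := hq p hp.isPrimePow hpd
    have := hp.pos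
    omega
  obtain ⟨K₀', -, hK₀'⟩ := Finset.exists_subset_card_eq (s := (Finset.univ : Finset α)) (n := j + 1)
    (by rw [Finset.card_univ]; omega)
  obtain ⟨x₀, hx₀⟩ : K₀'.Nonempty := by
    rw [← Finset.card_pos]
    omega
  set D₀ := K₀'.erase x₀ with hD₀
  have hD₀card : D₀.card = j := by
    rw [hD₀, Finset.card_erase_of_mem hx₀, hK₀']
    rfl
  let F : Finset α → Prop := fun D => ∃ g : G, g • D₀ = D
  have hF : ∀ D, F D → D.card = j := by
    rintro D ⟨g, rfl⟩
    rw [Finset.card_smul_finset, hD₀card]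
  have hFinv : ∀ (g : G) D, F D → F (g • D) := by
    rintro g D ⟨h, rfl⟩
    exact ⟨g * h, mul_smul _ _ _⟩
  have herase : ∀ (g : G) (K : Finset α) (x : α), g • K.erase x = (g • K).erase (g • x) := by
    intro g K x
    ext y
    simp only [Finset.mem_smul_finset, Finset.mem_erase, ne_eq]
    constructor
    · rintro ⟨z, ⟨h1, h2⟩, rfl⟩
      exact ⟨fun h => h1 (smul_left_cancel g h), z, h2, rfl⟩
    · rintro ⟨h1, z, h2, rfl⟩
      exact ⟨z, ⟨fun h => h1 (by rw [h]), h2⟩, rfl⟩
  -- the common count
  have hconj : ∀ K : Finset α, K.card = j + 1 → ∃ g : G, g • K₀' = K := by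
    intro K hK
    obtain ⟨g, hg⟩ := MulAction.exists_smul_eq G (⟨K₀', hK₀'⟩ : Set.powersetCard α (j + 1)) ⟨K, hK⟩
    exact ⟨g, congrArg Subtype.val hg⟩
  have ha : ∀ K : Finset α, K.card = j + 1 →
      (K.filter (fun x => F (K.erase x))).card = (K₀'.filter (fun x => F (K₀'.erase x))).card := by
    intro K hK
    obtain ⟨g, rfl⟩ := hconj K hK
    symm
    apply Finset.card_bij (fun x _ => g • x)
    · intro x hx
      rw [Finset.mem_filter] at hx ⊢
      refine ⟨Finset.smul_mem_smul_finset hx.1, ?_⟩
      rw [← herase]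
      exact hFinv g _ hx.2
    · intro x _ y _ h
      exact smul_left_cancel g h
    · intro y hy
      rw [Finset.mem_filter] at hy
      obtain ⟨x, hx, rfl⟩ := Finset.mem_smul_finset.mp hy.1
      refine ⟨x, ?_, rfl⟩
      rw [Finset.mem_filter]
      refine ⟨hx, ?_⟩
      have h2 := hFinv g⁻¹ _ hy.2
      rw [herase] at h2
      simpa using h2
  have ha0 : 0 < (K₀'.filter (fun x => F (K₀'.erase x))).card := by
    apply Finset.card_pos.mpr
    exact ⟨x₀, Finset.mem_filter.mpr ⟨hx₀, ⟨1, one_smul _ _⟩⟩⟩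
  have hdvd := core j hj F hF _ ha ha0 hq
  have hle : (K₀'.filter (fun x => F (K₀'.erase x))).card ≤ j + 1 := by
    rw [← hK₀']
    exact Finset.card_filter_le _ _
  have heq := Nat.le_antisymm hle (Nat.le_of_dvd ha0 hdvd)
  have hall : ∀ D : Finset α, D.card = j → F D := by
    intro D hD
    obtain ⟨x, hx⟩ : ∃ x, x ∉ D := by
      by_contra hcon
      push Not at hcon
      have : D = Finset.univ := Finset.eq_univ_iff_forall.mpr hcon
      rw [this, Finset.card_univ] at hD
      omega
    have hK : (insert x D).card = j + 1 := by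
      rw [Finset.card_insert_of_notMem hx, hD]
    have h1 := (ha _ hK).trans heq
    have h2 : ((insert x D).filter (fun y => F ((insert x D).erase y))).card = (insert x D).card := by
      rw [h1, hK]
    have h3 := Finset.filter_card_eq h2 x (Finset.mem_insert_self _ _)
    rwa [Finset.erase_insert hx] at h3
  refine ⟨fun D₁ D₂ => ?_⟩
  obtain ⟨g₁, hg₁⟩ := hall D₁.1 D₁.2
  obtain ⟨g₂, hg₂⟩ := hall D₂.1 D₂.2
  refine ⟨g₂ * g₁⁻¹, Subtype.ext ?_⟩
  show (g₂ * g₁⁻¹) • D₁.1 = D₂.1
  rw [← hg₁, ← hg₂, mul_smul, inv_smul_smul]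

end Cfsg.Agent.Lib.Perm.Homog
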