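import Mathlib
import Cfsg.Agent.Lib.Perm.PrimeAffine

/-!
The Sylow normaliser of a transitive permutation group of prime degree is affine: its order is
`p * t` with `t ∣ p - 1`.
-/

set_option autoImplicit false

namespace Cfsg.Agent.Lib.Perm

open MulAction

variable {α : Type*} [Fintype α] [DecidableEq α] {p : ℕ} [hp : Fact p.Prime]

/-- Elements normalising the group generated by a translation are affine. -/
theorem affine_of_normalizes (e : ZMod p ≃ α) {x y : Equiv.Perm α}
    (hx : ∀ j, x (e j) = e (j + 1)) (t : ℤ) (ht : y * x * y⁻¹ = x ^ t) :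
    ∃ a b : ZMod p, ∀ j, toZ e y j = a * j + b := by
  obtain ⟨τ, hτ⟩ : ∃ τ : ZMod p, τ = (t : ZMod p) := ⟨_, rfl⟩
  obtain ⟨π, hπ⟩ : ∃ π : Equiv.Perm (ZMod p), π = toZ e y := ⟨_, rfl⟩
  have hπe : ∀ k, y (e k) = e (π k) := by
    intro k
    rw [hπ, toZ_apply, Equiv.apply_symm_apply]
  have hstep : ∀ k, π (k + 1) = π k + τ := by
    intro k
    have h2 : y * x = x ^ t * y := by
      rw [← ht]; group
    have h3 : y (x (e k)) = (x ^ t) (y (e k)) := by
      have h4 := congrArg (fun g : Equiv.Perm α => g (e k)) h2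
      simpa using h4
    rw [hx, hπe, hπe, zpow_coord e hx, ← hτ] at h3
    exact e.injective h3
  have hnat : ∀ n : ℕ, π (n : ZMod p) = π 0 + τ * n := by
    intro n
    induction n with
    | zero => simp
    | succ n ih =>
      push_cast
      rw [hstep, ih]
      ring
  refine ⟨τ, π 0, fun k => ?_⟩
  rw [← hπ]
  have := hnat k.val
  rw [ZMod.natCast_zmod_val] at this
  rw [this]
  ring

/-- The order of the Sylow normaliser. -/
theorem card_normalizer_prime_degree (hα : Fintype.card α = p) (G : Subgroup (Equiv.Perm α))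
    [IsPretransitive G α] (P : Sylow p G) :
    ∃ t : ℕ, t ∣ p - 1 ∧
      Nat.card (Subgroup.normalizer ((P : Subgroup G) : Set G)) = p * t := by
  classical
  obtain ⟨x, e, hzp, hxord, hx⟩ := exists_coord hα G P
  -- the normaliser as a permutation group
  obtain ⟨N, hN⟩ : ∃ N : Subgroup G, N = Subgroup.normalizer ((P : Subgroup G) : Set G) := ⟨_, rfl⟩
  rw [← hN]
  let N' : Subgroup (Equiv.Perm α) := N.map G.subtype
  have hxN : x ∈ N := by
    rw [hN, Subgroup.mem_normalizer_iff]
    intro h
    have hxP : x ∈ (P : Subgroup G) := by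
      rw [hzp]; exact Subgroup.mem_zpowers x
    constructor
    · intro hh
      exact (P : Subgroup G).mul_mem ((P : Subgroup G).mul_mem hxP hh) ((P : Subgroup G).inv_mem hxP)
    · intro hh
      have := (P : Subgroup G).mul_mem ((P : Subgroup G).mul_mem ((P : Subgroup G).inv_mem hxP) hh) hxP
      simpa [mul_assoc] using this
  have hcardN : Nat.card N' = Nat.card N :=
    Nat.card_congr (N.equivMapOfInjective G.subtype G.subtype_injective).symm.toEquiv
  have haff : ∀ g : N', ∃ a b : ZMod p, ∀ j, toZ e (g : Equiv.Perm α) j = a * j + b := by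
    rintro ⟨_, g, hg₀, rfl⟩
    have hg : g ∈ Subgroup.normalizer ((P : Subgroup G) : Set G) := by
      rw [← hN]; exact hg₀
    rw [Subgroup.mem_normalizer_iff] at hg
    have hxP : x ∈ (P : Subgroup G) := by
      rw [hzp]; exact Subgroup.mem_zpowers x
    have h1 := (hg x).mp hxP
    rw [hzp, Subgroup.mem_zpowers_iff] at h1
    obtain ⟨t, ht⟩ := h1
    apply affine_of_normalizes e (x := (x : Equiv.Perm α)) hx t
    have := congrArg (Subtype.val) ht
    simpa using this.symm
  obtain ⟨ψ, b, hψ⟩ := exists_affine_hom e N' haff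
  -- the kernel is a group of translations, containing `x`
  have hkerb : Function.Injective (fun g : ψ.ker => b (g : N')) := by
    intro g g' hgg
    have h1 : ψ (g : N') = 1 := g.2
    have h2 : ψ (g' : N') = 1 := g'.2
    apply Subtype.ext
    apply Subtype.ext
    ext z
    obtain ⟨j, rfl⟩ := e.surjective z
    have h3 := hψ (g : N') j
    have h4 := hψ (g' : N') j
    rw [h1] at h3
    rw [h2] at h4
    simp only [toZ_apply, Units.val_one, one_mul] at h3 h4
    rw [Equiv.symm_apply_eq] at h3 h4
    have hgg' : b (g : N') = b (g' : N') := hgg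
    rw [h3, h4, hgg']
  have hkerle : Nat.card ψ.ker ≤ p := by
    have h1 := Nat.card_le_card_of_injective _ hkerb
    rwa [Nat.card_zmod] at h1
  have hxN' : (x : Equiv.Perm α) ∈ N' := ⟨x, hxN, rfl⟩
  have hxker : (⟨(x : Equiv.Perm α), hxN'⟩ : N') ∈ ψ.ker := by
    have h1 := hψ ⟨(x : Equiv.Perm α), hxN'⟩ 0
    have h2 := hψ ⟨(x : Equiv.Perm α), hxN'⟩ 1
    have h3 : ∀ j, toZ e (x : Equiv.Perm α) j = j + 1 := by
      intro j
      rw [toZ_apply, hx, Equiv.symm_apply_apply]
    simp only [h3] at h1 h2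
    rw [MonoidHom.mem_ker]
    apply Units.ext
    simp only [mul_zero, zero_add, mul_one] at h1 h2
    simp only [Units.val_one]
    linear_combination h1 - h2
  have hkerdvd : p ∣ Nat.card ψ.ker := by
    have h1 : orderOf (⟨⟨(x : Equiv.Perm α), hxN'⟩, hxker⟩ : ψ.ker) = orderOf x := by
      rw [← Subgroup.orderOf_coe, ← Subgroup.orderOf_coe, ← Subgroup.orderOf_coe x]
    exact Dvd.dvd.trans (dvd_of_eq (h1.trans hxord).symm) (orderOf_dvd_natCard _)
  have hkercard : Nat.card ψ.ker = p :=
    le_antisymm hkerle (Nat.le_of_dvd Nat.card_pos hkerdvd)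
  refine ⟨Nat.card ψ.range, ?_, ?_⟩
  · have h1 := Subgroup.card_subgroup_dvd_card ψ.range
    rwa [Nat.card_eq_fintype_card (α := (ZMod p)ˣ), ZMod.card_units_eq_totient,
      Nat.totient_prime hp.out] at h1
  · rw [← hcardN]
    have h1 := Subgroup.card_eq_card_quotient_mul_card_subgroup ψ.ker
    have h2 : Nat.card (N' ⧸ ψ.ker) = Nat.card ψ.range :=
      Nat.card_congr (QuotientGroup.quotientKerEquivRange ψ).toEquiv
    rw [h2, hkercard] at h1
    rw [h1, mul_comm]

/-- Numerics of Sylow subgroups in a transitive group of prime degree. -/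
theorem sylow_count_prime_degree (hα : Fintype.card α = p) (G : Subgroup (Equiv.Perm α))
    [IsPretransitive G α] (P : Sylow p G) :
    ∃ t : ℕ, t ∣ p - 1 ∧
      Nat.card (Subgroup.normalizer ((P : Subgroup G) : Set G)) = p * t ∧
      Nat.card (Sylow p G) * (p * t) = Nat.card G ∧ Nat.card (Sylow p G) ≡ 1 [MOD p] := by
  obtain ⟨t, ht, hcard⟩ := card_normalizer_prime_degree hα G P
  refine ⟨t, ht, hcard, ?_, card_sylow_modEq_one p G⟩
  rw [← hcard, Sylow.card_eq_index_normalizer P]
  exact Subgroup.index_mul_card _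

end Cfsg.Agent.Lib.Perm
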