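import Mathlib
import Cfsg.Agent.Lib.Perm.Basic

/-!
Linear groups regular on the non-zero vectors over a prime field.
-/

set_option autoImplicit false
set_option linter.style.haveILetI false

namespace Cfsg.Agent.Lib.Perm.RegLin

/-- A faithful irreducible linear representation of a finite abelian group is of a cyclic group. -/
theorem isCyclic_of_irreducible {k W A : Type*} [Field k] [AddCommGroup W] [Module k W] [Nontrivial W]
    [Group A] [Finite A] (hc : ∀ a b : A, a * b = b * a) (ρ : A →* Module.End k W)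
    (hinj : Function.Injective ρ)
    (hirr : ∀ U : Submodule k W, (∀ a, ∀ v ∈ U, ρ a v ∈ U) → U = ⊥ ∨ U = ⊤) : IsCyclic A := by
  classical
  have hcomm : ∀ x ∈ Set.range ρ, ∀ y ∈ Set.range ρ, x * y = y * x := by
    rintro _ ⟨a, rfl⟩ _ ⟨b, rfl⟩
    rw [← map_mul, hc, map_mul]
  letI : CommRing (Algebra.adjoin k (Set.range ρ)) := Algebra.adjoinCommRingOfComm k hcomm
  let f : A →* Algebra.adjoin k (Set.range ρ) :=
    { toFun := fun a => ⟨ρ a, Algebra.subset_adjoin ⟨a, rfl⟩⟩
      map_one' := Subtype.ext (map_one ρ)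
      map_mul' := fun a b => Subtype.ext (map_mul ρ a b) }
  have hfinj : Function.Injective f := by
    intro a b hab
    exact hinj (congrArg Subtype.val hab)
  have hnz : ∀ r s : Algebra.adjoin k (Set.range ρ), r * s = 0 → r = 0 ∨ s = 0 := by
    intro r s hrs
    by_cases hr : r = 0
    · exact Or.inl hr
    right
    have hinv : ∀ a, ∀ v ∈ LinearMap.ker (r : Module.End k W), ρ a v ∈ LinearMap.ker (r : Module.End k W) := by
      intro a v hv
      rw [LinearMap.mem_ker] at hv ⊢
      have h1 : r * f a = f a * r := mul_comm _ _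
      have h2 : ((r * f a : Algebra.adjoin k (Set.range ρ)) : Module.End k W) v =
          ((f a * r : Algebra.adjoin k (Set.range ρ)) : Module.End k W) v := by rw [h1]
      have h3 : (r : Module.End k W) (ρ a v) = ρ a ((r : Module.End k W) v) := h2
      rw [h3, hv, map_zero]
    rcases hirr _ hinv with h0 | h0
    · apply Subtype.ext
      apply LinearMap.ext
      intro v
      have h1 : (r : Module.End k W) ((s : Module.End k W) v) = 0 := by
        have h2 : ((r * s : Algebra.adjoin k (Set.range ρ)) : Module.End k W) v = 0 := by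
          rw [hrs]
          rfl
        exact h2
      have h2 : (s : Module.End k W) v ∈ LinearMap.ker (r : Module.End k W) := h1
      rw [h0, Submodule.mem_bot] at h2
      exact h2
    · exfalso
      apply hr
      apply Subtype.ext
      exact LinearMap.ker_eq_top.mp h0
  haveI : Nontrivial (Algebra.adjoin k (Set.range ρ)) := by
    refine ⟨⟨1, 0, fun h => ?_⟩⟩
    have h1 : ((1 : Algebra.adjoin k (Set.range ρ)) : Module.End k W) = 0 := congrArg Subtype.val h
    obtain ⟨v, hv⟩ := exists_ne (0 : W)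
    have h2 : (1 : Module.End k W) v = 0 := by
      have : ((1 : Algebra.adjoin k (Set.range ρ)) : Module.End k W) v = (0 : Module.End k W) v := by rw [h1]
      exact this
    exact hv h2
  haveI : NoZeroDivisors (Algebra.adjoin k (Set.range ρ)) := ⟨fun {r s} h => hnz r s h⟩
  haveI : IsDomain (Algebra.adjoin k (Set.range ρ)) := NoZeroDivisors.to_isDomain _
  exact isCyclic_of_injective_ringHom f hfinj

variable {p : ℕ} [Fact p.Prime] {V : Type*} [AddCommGroup V] [Module (ZMod p) V] [Finite V]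
  {H : Subgroup (V ≃ₗ[ZMod p] V)}

/-- A subgroup of `H` preserves a subspace. -/
def Inv (A : Subgroup H) (W : Submodule (ZMod p) V) : Prop :=
  ∀ a ∈ A, ∀ v ∈ W, ((a : H) : V ≃ₗ[ZMod p] V) v ∈ W

/-- The regularity hypothesis. -/
def Reg (H : Subgroup (V ≃ₗ[ZMod p] V)) : Prop :=
  ∀ v w : V, v ≠ 0 → w ≠ 0 → ∃! h : H, (h : V ≃ₗ[ZMod p] V) v = w

theorem Reg.free (hreg : Reg H) {h : H} {v : V} (hv : v ≠ 0) (hf : (h : V ≃ₗ[ZMod p] V) v = v) : h = 1 := by
  exact (hreg v v hv hv).unique hf rfl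

/-- Minimal invariant subspaces exist. -/
theorem exists_minimal (A : Subgroup H) (W₁ : Submodule (ZMod p) V) (h1 : W₁ ≠ ⊥) (h2 : Inv A W₁) :
    ∃ W ≤ W₁, W ≠ ⊥ ∧ Inv A W ∧ ∀ W' : Submodule (ZMod p) V, W' ≤ W → Inv A W' → W' = ⊥ ∨ W' = W := by
  classical
  haveI : Finite (Submodule (ZMod p) V) := Finite.of_injective (fun W => (W : Set V)) SetLike.coe_injective
  obtain ⟨W, ⟨hW1, hW2, hW3⟩, hmin⟩ := (wellFounded_lt (α := Submodule (ZMod p) V)).has_min
    {W | W ≤ W₁ ∧ W ≠ ⊥ ∧ Inv A W} ⟨W₁, le_rfl, h1, h2⟩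
  refine ⟨W, hW1, hW2, hW3, fun W' hW' hinv => ?_⟩
  by_cases hb : W' = ⊥
  · exact Or.inl hb
  · right
    by_contra hne
    exact hmin W' ⟨hW'.trans hW1, hb, hinv⟩ (lt_of_le_of_ne hW' hne)

theorem finite_equiv : Finite (V ≃ₗ[ZMod p] V) :=
  Finite.of_injective (fun e => (e : V → V)) DFunLike.coe_injective

/-- Abelian subgroups of a regular group are cyclic. -/
theorem isCyclic_of_comm (hreg : Reg H) [Nontrivial V] (A : Subgroup H) (hc : IsMulCommutative A) : IsCyclic A := by
  classical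
  haveI : Finite (V ≃ₗ[ZMod p] V) := finite_equiv
  obtain ⟨W, -, hW0, hWinv, hWmin⟩ := exists_minimal A ⊤ (top_ne_bot) (fun _ _ _ _ => Submodule.mem_top)
  haveI : Nontrivial W := Submodule.nontrivial_iff_ne_bot.mpr hW0
  let ρ : A →* Module.End (ZMod p) W :=
    { toFun := fun a => LinearMap.restrict (((a : H) : V ≃ₗ[ZMod p] V).toLinearMap) (fun v hv => hWinv a a.2 v hv)
      map_one' := by
        apply LinearMap.ext
        intro v
        apply Subtype.ext
        rfl
      map_mul' := fun a b => by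
        apply LinearMap.ext
        intro v
        apply Subtype.ext
        rfl }
  refine isCyclic_of_irreducible (fun a b => hc.is_comm.comm a b) ρ ?_ ?_
  · intro a b hab
    obtain ⟨v, hv⟩ := exists_ne (0 : W)
    have hv' : (v : V) ≠ 0 := fun h => hv (Subtype.ext h)
    have h1 : ((a : H) : V ≃ₗ[ZMod p] V) (v : V) = ((b : H) : V ≃ₗ[ZMod p] V) (v : V) := by
      have := congrArg (fun f : Module.End (ZMod p) W => ((f v : W) : V)) hab
      exact this
    have h2 : ((a : H) * (b : H)⁻¹ : H) = 1 := by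
      apply hreg.free (v := ((b : H) : V ≃ₗ[ZMod p] V) (v : V))
      · intro h0
        apply hv'
        exact (LinearEquiv.map_eq_zero_iff _).mp h0
      · show ((a : H) : V ≃ₗ[ZMod p] V) ((((b : H)⁻¹ : H) : V ≃ₗ[ZMod p] V) (((b : H) : V ≃ₗ[ZMod p] V) (v : V))) = _
        have h3 : (((b : H)⁻¹ : H) : V ≃ₗ[ZMod p] V) (((b : H) : V ≃ₗ[ZMod p] V) (v : V)) = (v : V) := by
          show (((b : H)⁻¹ * (b : H) : H) : V ≃ₗ[ZMod p] V) (v : V) = v
          rw [inv_mul_cancel]
          rfl
        rw [h3, h1]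
    apply Subtype.ext
    exact mul_inv_eq_one.mp h2
  · intro U hU
    let U' : Submodule (ZMod p) V := U.map W.subtype
    have hU' : Inv A U' := by
      rintro a ha _ ⟨u, hu, rfl⟩
      exact ⟨_, hU ⟨a, ha⟩ u hu, rfl⟩
    have hle : U' ≤ W := by
      rintro _ ⟨u, _, rfl⟩
      exact u.2
    rcases hWmin U' hle hU' with h0 | h0
    · left
      rw [eq_bot_iff]
      intro u hu
      have : (u : V) ∈ U' := ⟨u, hu, rfl⟩
      rw [h0, Submodule.mem_bot] at this
      exact (Submodule.mem_bot _).mpr (Subtype.ext this)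
    · right
      rw [eq_top_iff]
      intro u _
      have : (u : V) ∈ U' := by
        rw [h0]
        exact u.2
      obtain ⟨u', hu', he⟩ := this
      have : u' = u := Subtype.ext he
      rwa [← this]

/-- The order of a subgroup divides the number of non-zero vectors of an invariant subspace. -/
theorem card_dvd (hreg : Reg H) (A : Subgroup H) (W : Submodule (ZMod p) V) (hW : Inv A W) :
    Nat.card A ∣ p ^ Module.finrank (ZMod p) W - 1 := by
  classical
  haveI : Finite (V ≃ₗ[ZMod p] V) := finite_equiv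
  have h1 := Lib.Perm.dvd_ncard_of_orbits (Γ := H) (α := V) A ((W : Set V) \ {0})
    (by
      rintro a ha v ⟨hv, hv0⟩
      refine ⟨hW a ha v hv, ?_⟩
      intro h0
      apply hv0
      have h2 : ((a : H) : V ≃ₗ[ZMod p] V) v = 0 := h0
      exact (LinearEquiv.map_eq_zero_iff _).mp h2)
    (Nat.card A)
    (by
      rintro v ⟨_, hv0⟩
      have hv1 : v ≠ 0 := hv0
      apply dvd_of_eq
      rw [← Nat.card_coe_set_eq]
      apply Nat.card_congr
      refine Equiv.ofBijective (fun a => ⟨a • v, MulAction.mem_orbit _ _⟩) ⟨?_, ?_⟩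
      · intro a b hab
        have h2 : ((a : A) : H) • v = ((b : A) : H) • v := congrArg Subtype.val hab
        have h3 : (((b : A) : H)⁻¹ * ((a : A) : H) : H) = 1 := by
          apply hreg.free hv1
          show (((b : A) : H)⁻¹ * ((a : A) : H)) • v = v
          rw [mul_smul, h2, inv_smul_smul]
        exact Subtype.ext (inv_mul_eq_one.mp h3).symm
      · rintro ⟨_, a, rfl⟩
        exact ⟨a, rfl⟩)
  have h2 : ((W : Set V) \ {0}).ncard = p ^ Module.finrank (ZMod p) W - 1 := by
    rw [Set.ncard_sdiff_singleton_of_mem (Submodule.zero_mem W)]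
    congr 1
    rw [← Nat.card_coe_set_eq]
    haveI : Fintype W := Fintype.ofFinite _
    have h3 := Module.card_eq_pow_finrank (K := ZMod p) (V := W)
    rw [ZMod.card] at h3
    rw [← h3, ← Nat.card_eq_fintype_card]
    rfl
  rwa [h2] at h1

/-- Two minimal invariant subspaces of a normal subgroup have the same dimension and
the whole space has at least twice the dimension if one of them is proper. -/
theorem two_mul_finrank_le (hreg : Reg H) (A : Subgroup H) (hA : A.Normal) (W : Submodule (ZMod p) V) (hW0 : W ≠ ⊥)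
    (hW : Inv A W) (hmin : ∀ W' : Submodule (ZMod p) V, W' ≤ W → Inv A W' → W' = ⊥ ∨ W' = W) (hne : W ≠ ⊤) :
    2 * Module.finrank (ZMod p) W ≤ Module.finrank (ZMod p) V := by
  classical
  obtain ⟨w₀, hw₀, hw₀0⟩ := (Submodule.ne_bot_iff W).mp hW0
  obtain ⟨v, hv⟩ : ∃ v : V, v ∉ W := by
    by_contra hcon
    push Not at hcon
    exact hne (eq_top_iff.mpr fun x _ => hcon x)
  have hv0 : v ≠ 0 := fun h => hv (h ▸ W.zero_mem)
  obtain ⟨h, hh, -⟩ := hreg w₀ v hw₀0 hv0
  let W' : Submodule (ZMod p) V := W.map ((h : V ≃ₗ[ZMod p] V).toLinearMap)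
  have hdim : Module.finrank (ZMod p) W' = Module.finrank (ZMod p) W :=
    LinearEquiv.finrank_map_eq _ _
  have hinv : Inv A (W ⊓ W') := by
    intro a ha u hu
    refine ⟨hW a ha u hu.1, ?_⟩
    obtain ⟨x, hx, hxu⟩ := hu.2
    refine ⟨((h⁻¹ * (a : H) * h : H) : V ≃ₗ[ZMod p] V) x, ?_, ?_⟩
    · apply hW _ _ _ hx
      have : h⁻¹ * a * h = h⁻¹ * a * h⁻¹⁻¹ := by rw [inv_inv]
      rw [this]
      exact hA.conj_mem a ha h⁻¹
    · have hxu' : (h : V ≃ₗ[ZMod p] V) x = u := hxu
      show (h : V ≃ₗ[ZMod p] V) (((h⁻¹ * (a : H) * h : H) : V ≃ₗ[ZMod p] V) x) = ((a : H) : V ≃ₗ[ZMod p] V) u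
      rw [← hxu']
      show ((h * (h⁻¹ * (a : H) * h) : H) : V ≃ₗ[ZMod p] V) x = (((a : H) * h : H) : V ≃ₗ[ZMod p] V) x
      congr 2
      group
  have hdisj : W ⊓ W' = ⊥ := by
    rcases hmin _ inf_le_left hinv with h0 | h0
    · exact h0
    · exfalso
      apply hv
      have hvW' : v ∈ W' := ⟨w₀, hw₀, hh⟩
      have hle : W ≤ W' := by
        rw [← h0]
        exact inf_le_right
      have heq : W = W' := Submodule.eq_of_le_of_finrank_eq hle hdim.symm
      rw [heq]
      exact hvW'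
  have h1 := Submodule.finrank_add_finrank_le_of_disjoint (disjoint_iff.mpr hdisj)
  omega

/-- The number of elements of a regular group. -/
theorem card_add_one (hreg : Reg H) [Nontrivial V] : Nat.card H + 1 = Nat.card V := by
  classical
  haveI : Finite (V ≃ₗ[ZMod p] V) := finite_equiv
  haveI : Fintype V := Fintype.ofFinite _
  obtain ⟨v₀, hv₀⟩ := exists_ne (0 : V)
  have h1 : Nat.card H = Nat.card {v : V // v ≠ 0} := by
    apply Nat.card_congr
    refine Equiv.ofBijective (fun h => ⟨(h : V ≃ₗ[ZMod p] V) v₀, ?_⟩) ⟨?_, ?_⟩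
    · intro h0
      exact hv₀ ((LinearEquiv.map_eq_zero_iff _).mp h0)
    · intro a b hab
      have h2 : (a : V ≃ₗ[ZMod p] V) v₀ = (b : V ≃ₗ[ZMod p] V) v₀ := congrArg Subtype.val hab
      have h3 : ((b : V ≃ₗ[ZMod p] V) v₀) ≠ 0 := fun h0 => hv₀ ((LinearEquiv.map_eq_zero_iff _).mp h0)
      exact (hreg v₀ _ hv₀ h3).unique h2 rfl
    · rintro ⟨w, hw⟩
      obtain ⟨h, hh, -⟩ := hreg v₀ w hv₀ hw
      exact ⟨h, Subtype.ext hh⟩
  rw [h1, Nat.card_eq_fintype_card, Nat.card_eq_fintype_card, Fintype.card_subtype_compl]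
  have h2 : Fintype.card {x // x = (0 : V)} = 1 := Fintype.card_unique
  have h3 : 0 < Fintype.card V := Fintype.card_pos
  omega

/-- A nontrivial space, since a regular group with no irreducible cyclic normal subgroup leaves
a proper subspace invariant. -/
theorem nontrivial_of_hI (hI : ∀ A : Subgroup H, A.Normal → IsCyclic A → ∃ W : Submodule (ZMod p) V, W ≠ ⊥ ∧ W ≠ ⊤ ∧
    ∀ a ∈ A, ∀ v ∈ W, ((a : H) : V ≃ₗ[ZMod p] V) v ∈ W) : Nontrivial V := by
  obtain ⟨W, hW, -, -⟩ := hI ⊥ inferInstance inferInstance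
  obtain ⟨w, -, hw⟩ := (Submodule.ne_bot_iff W).mp hW
  exact ⟨⟨w, 0, hw⟩⟩

/-- The structure of an abelian normal subgroup. -/
theorem exists_min_inv (hreg : Reg H)
    (hI : ∀ A : Subgroup H, A.Normal → IsCyclic A → ∃ W : Submodule (ZMod p) V, W ≠ ⊥ ∧ W ≠ ⊤ ∧
      ∀ a ∈ A, ∀ v ∈ W, ((a : H) : V ≃ₗ[ZMod p] V) v ∈ W)
    (A : Subgroup H) (hAn : A.Normal) (hAc : IsMulCommutative A) :
    IsCyclic A ∧ ∃ W : Submodule (ZMod p) V, W ≠ ⊥ ∧ W ≠ ⊤ ∧ Inv A W ∧
      (∀ W' : Submodule (ZMod p) V, W' ≤ W → Inv A W' → W' = ⊥ ∨ W' = W) ∧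
      Nat.card A ∣ p ^ Module.finrank (ZMod p) W - 1 := by
  haveI := nontrivial_of_hI hI
  have hcyc := isCyclic_of_comm hreg A hAc
  refine ⟨hcyc, ?_⟩
  obtain ⟨W₁, h1, h2, h3⟩ := hI A hAn hcyc
  obtain ⟨W, hle, hW0, hWinv, hmin⟩ := exists_minimal A W₁ h1 h3
  refine ⟨W, hW0, ?_, hWinv, hmin, card_dvd hreg A W hWinv⟩
  rintro rfl
  exact h2 (eq_top_iff.mpr hle)

/-- A self-centralizing abelian normal subgroup is impossible in the reducible situation. -/
theorem not_comm_centralizer (hreg : Reg H)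
    (hI : ∀ A : Subgroup H, A.Normal → IsCyclic A → ∃ W : Submodule (ZMod p) V, W ≠ ⊥ ∧ W ≠ ⊤ ∧
      ∀ a ∈ A, ∀ v ∈ W, ((a : H) : V ≃ₗ[ZMod p] V) v ∈ W)
    (A : Subgroup H) (hAn : A.Normal) (hAc : IsMulCommutative A)
    (hAmax : ∀ B : Subgroup H, B.Normal → IsMulCommutative B → A ≤ B → B = A) :
    ¬ IsMulCommutative (Subgroup.centralizer (A : Set H)) := by
  classical
  haveI : Finite (V ≃ₗ[ZMod p] V) := finite_equiv
  haveI := nontrivial_of_hI hI
  intro hc
  have hle : A ≤ Subgroup.centralizer (A : Set H) := by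
    intro a ha b hb
    have := hAc.is_comm.comm (⟨a, ha⟩ : A) ⟨b, hb⟩
    exact (congrArg Subtype.val this).symm
  have hCeq := hAmax _ inferInstance hc hle
  obtain ⟨hcyc, W, hW0, hWne, hWinv, hmin, hdvd⟩ := exists_min_inv hreg hI A hAn hAc
  -- the order bound
  let f : H →* MulAut A := MulAut.conjNormal
  have hker : f.ker = A := by
    refine Eq.trans ?_ hCeq
    ext x
    rw [MonoidHom.mem_ker, Subgroup.mem_centralizer_iff]
    constructor
    · intro h a ha
      have := DFunLike.congr_fun h ⟨a, ha⟩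
      have h2 : x * a * x⁻¹ = a := congrArg Subtype.val this
      calc a * x = (x * a * x⁻¹) * x := by rw [h2]
        _ = x * a := by group
    · intro h
      refine MulEquiv.ext fun a => Subtype.ext ?_
      show x * a * x⁻¹ = a
      rw [← h a a.2]
      group
  have hcardH : Nat.card H = Nat.card A * Nat.card f.range := by
    have h := f.ker.card_mul_index
    rw [Subgroup.index_ker] at h
    have h2 : Nat.card f.ker = Nat.card A := by rw [hker]
    rw [← h, h2]
  have hrange : Nat.card f.range ≤ Nat.card A := by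
    have h1 : Nat.card f.range ≤ Nat.card (MulAut A) := Nat.card_le_card_of_injective (fun x => (x : MulAut A)) Subtype.val_injective
    rw [IsCyclic.card_mulAut] at h1
    exact h1.trans (Nat.totient_le _)
  have hk := two_mul_finrank_le hreg A hAn W hW0 hWinv hmin hWne
  set k := Module.finrank (ZMod p) W with hkdef
  have hk0 : 0 < k := by
    rw [hkdef]
    exact Module.finrank_pos_iff.mpr (Submodule.nontrivial_iff_ne_bot.mpr hW0)
  have hV := card_add_one hreg
  have hVcard : Nat.card V = p ^ Module.finrank (ZMod p) V := by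
    haveI : Fintype V := Fintype.ofFinite _
    have h3 := Module.card_eq_pow_finrank (K := ZMod p) (V := V)
    rw [ZMod.card] at h3
    rw [Nat.card_eq_fintype_card, h3]
  have hp := (Fact.out : p.Prime).two_le
  have htwo : 2 ≤ p ^ k := le_trans hp (Nat.le_self_pow hk0.ne' p)
  have hA_le : Nat.card A ≤ p ^ k - 1 := Nat.le_of_dvd (by omega) hdvd
  have hVle : p ^ (2 * k) ≤ Nat.card V := by
    rw [hVcard]
    exact Nat.pow_le_pow_right (by omega) hk
  have hsq : p ^ (2 * k) = p ^ k * p ^ k := by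
    rw [two_mul, pow_add]
  set t := p ^ k with ht
  rw [hsq] at hVle
  have h1 : Nat.card H ≤ (t - 1) * (t - 1) := by
    rw [hcardH]
    exact Nat.mul_le_mul hA_le (hrange.trans hA_le)
  obtain ⟨u, hu⟩ : ∃ u, t = u + 2 := ⟨t - 2, by omega⟩
  rw [hu] at h1 hVle
  have h2 : u + 2 - 1 = u + 1 := by omega
  rw [h2] at h1
  nlinarith

end Cfsg.Agent.Lib.Perm.RegLin
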