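import Mathlib
import Cfsg.Agent.Lib.Perm.RegLin
import Cfsg.Agent.Lib.FF.RankOne
import Cfsg.Agent.Lib.InvolChar.QuatPres
import Cfsg.Agent.Lib.Classical.QuatHom

/-!
Solvable linear groups regular on the non-zero vectors without irreducible cyclic normal subgroup.
-/

set_option autoImplicit false
set_option linter.style.haveILetI false

namespace Cfsg.Agent.Lib.Perm.RegLin

open Subgroup MulAction
open scoped commutatorElement

/-- The quaternion group of order eight. -/
abbrev Q8 := QuaternionGroup 2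

/-- Pairs of non-commuting elements of order four. -/
def PiQ : Finset (Q8 × Q8) :=
  Finset.univ.filter fun z => z.1 ^ 2 ≠ 1 ∧ z.2 ^ 2 ≠ 1 ∧ z.1 * z.2 ≠ z.2 * z.1

theorem piQ_card : PiQ.card = 24 := by decide +kernel

theorem piQ_gen : ∀ z ∈ PiQ, ∀ g : Q8, ∃ i j : Fin 4, g = z.1 ^ (i : ℕ) * z.2 ^ (j : ℕ) := by
  decide +kernel

/-- The automorphism group of `Q8` has order dividing `24`. -/
theorem card_mulAut_dvd : Nat.card (MulAut Q8) ∣ 24 := by
  classical
  have hmem : ∀ z : Q8 × Q8, z ∈ PiQ ↔ z.1 ^ 2 ≠ 1 ∧ z.2 ^ 2 ≠ 1 ∧ z.1 * z.2 ≠ z.2 * z.1 := by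
    intro z
    simp [PiQ]
  have h := Cfsg.Agent.Lib.Perm.dvd_ncard_of_orbits (Γ := MulAut Q8) (α := Q8 × Q8) ⊤
    (PiQ : Set (Q8 × Q8)) (by
      intro f _ z hz
      have hz' := (hmem z).1 hz
      refine (hmem _).2 ⟨?_, ?_, ?_⟩
      · intro h0
        apply hz'.1
        apply f.injective
        rw [map_pow, map_one]
        exact h0
      · intro h0
        apply hz'.2.1
        apply f.injective
        rw [map_pow, map_one]
        exact h0
      · intro h0
        apply hz'.2.2
        apply f.injective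
        rw [map_mul, map_mul]
        exact h0) (Nat.card (MulAut Q8)) (by
      intro z hz
      apply dvd_of_eq
      rw [← Nat.card_coe_set_eq]
      apply Nat.card_congr
      refine Equiv.ofBijective (fun f : MulAut Q8 => ⟨(⟨f, trivial⟩ : (⊤ : Subgroup (MulAut Q8))) • z,
        MulAction.mem_orbit _ _⟩) ⟨?_, ?_⟩
      · intro f g hfg
        have h1 : f • z = g • z := congrArg Subtype.val hfg
        have h2 : f z.1 = g z.1 := congrArg Prod.fst h1
        have h3 : f z.2 = g z.2 := congrArg Prod.snd h1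
        apply MulEquiv.ext
        intro t
        obtain ⟨i, j, rfl⟩ := piQ_gen z hz t
        rw [map_mul, map_mul, map_pow, map_pow, map_pow, map_pow, h2, h3]
      · rintro ⟨_, ⟨f, hf⟩, rfl⟩
        exact ⟨f, rfl⟩)
  rw [Set.ncard_coe_finset, piQ_card] at h
  exact h

/-- Sylow reduction for a minimal non-abelian normal nilpotent subgroup. -/
theorem isPGroup_of_minimal {H : Type*} [Group H] [Finite H] (N : Subgroup H) [N.Normal]
    [hnil : Group.IsNilpotent N] (hna : ¬ IsMulCommutative N)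
    (hmin : ∀ M : Subgroup H, M.Normal → M ≤ N → ¬ IsMulCommutative M → M = N) :
    ∃ q : ℕ, q.Prime ∧ IsPGroup q N := by
  classical
  by_cases hall : ∀ (p : ℕ) (_ : Fact p.Prime) (P : Sylow p N), IsMulCommutative (P : Subgroup N)
  · exfalso
    apply hna
    let e := Sylow.directProductOfNormal (G := N) (fun {p} _ P => inferInstance)
    refine ⟨⟨fun x y => ?_⟩⟩
    have h1 : e.symm x * e.symm y = e.symm y * e.symm x := by
      funext p P
      haveI : Fact (p : ℕ).Prime := ⟨Nat.prime_of_mem_primeFactors p.2⟩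
      haveI := hall p inferInstance P
      exact mul_comm' _ _
    have h2 := congrArg e h1
    simpa using h2
  · push Not at hall
    obtain ⟨q, hq, P, hP⟩ := hall
    refine ⟨q, hq.out, ?_⟩
    haveI hch : (P : Subgroup N).Characteristic := Sylow.characteristic_of_normal P inferInstance
    have hM := hmin ((P : Subgroup N).map N.subtype) inferInstance (map_subtype_le _) (by
      intro hc
      apply hP
      refine ⟨⟨fun x y => ?_⟩⟩
      have h1 := hc.is_comm.comm (⟨((x : N) : H), x, x.2, rfl⟩ : ((P : Subgroup N).map N.subtype : Subgroup H))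
        ⟨((y : N) : H), y, y.2, rfl⟩
      apply Subtype.ext
      apply Subtype.ext
      show ((x : N) : H) * ((y : N) : H) = ((y : N) : H) * ((x : N) : H)
      exact congrArg Subtype.val h1)
    intro g
    have hg : (g : H) ∈ (P : Subgroup N).map N.subtype := by
      rw [hM]
      exact g.2
    obtain ⟨g', hg', hgg⟩ := hg
    have h3 : g' = g := Subtype.ext hgg
    subst h3
    obtain ⟨k, hk⟩ := P.isPGroup' ⟨g', hg'⟩
    exact ⟨k, by simpa [Subtype.ext_iff] using hk⟩


/-- Two commuting abelian subgroups generate an abelian subgroup. -/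
theorem comm_sup {H : Type*} [Group H] (A B : Subgroup H) (hA : IsMulCommutative A)
    (hB : IsMulCommutative B) (hAB : ∀ a ∈ A, ∀ b ∈ B, a * b = b * a) :
    IsMulCommutative (A ⊔ B : Subgroup H) := by
  have h1 : ∀ x ∈ (A ⊔ B : Subgroup H), ∀ a ∈ A, x * a = a * x := by
    intro x hx a ha
    have hle : A ⊔ B ≤ centralizer ({a} : Set H) := by
      apply sup_le
      · intro y hy
        rw [mem_centralizer_singleton_iff]
        exact congrArg Subtype.val (hA.is_comm.comm (⟨y, hy⟩ : A) ⟨a, ha⟩)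
      · intro y hy
        rw [mem_centralizer_singleton_iff]
        exact (hAB a ha y hy).symm
    exact (mem_centralizer_singleton_iff.mp (hle hx))
  have h2 : ∀ x ∈ (A ⊔ B : Subgroup H), ∀ b ∈ B, x * b = b * x := by
    intro x hx b hb
    have hle : A ⊔ B ≤ centralizer ({b} : Set H) := by
      apply sup_le
      · intro y hy
        rw [mem_centralizer_singleton_iff]
        exact hAB y hy b hb
      · intro y hy
        rw [mem_centralizer_singleton_iff]
        exact congrArg Subtype.val (hB.is_comm.comm (⟨y, hy⟩ : B) ⟨b, hb⟩)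
    exact (mem_centralizer_singleton_iff.mp (hle hx))
  refine ⟨⟨fun x y => Subtype.ext ?_⟩⟩
  show (x : H) * (y : H) = (y : H) * (x : H)
  have hle : A ⊔ B ≤ centralizer ({(x : H)} : Set H) := by
    apply sup_le
    · intro z hz
      rw [mem_centralizer_singleton_iff]
      exact (h1 x x.2 z hz).symm
    · intro z hz
      rw [mem_centralizer_singleton_iff]
      exact (h2 x x.2 z hz).symm
  exact (mem_centralizer_singleton_iff.mp (hle y.2)).symm

variable {p : ℕ} [Fact p.Prime] {V : Type*} [AddCommGroup V] [Module (ZMod p) V] [Finite V]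
  {H : Subgroup (V ≃ₗ[ZMod p] V)}

/-- An involution of a regular group is the negation. -/
theorem involution_eq_neg (hreg : Reg H) (t : H) (ht : orderOf t = 2) (v : V) :
    (t : V ≃ₗ[ZMod p] V) v = -v := by
  by_contra hne
  have hu : v + (t : V ≃ₗ[ZMod p] V) v ≠ 0 := by
    intro h0
    exact hne (eq_neg_of_add_eq_zero_right h0)
  have ht2 : t * t = 1 := by
    rw [← sq, ← ht]
    exact pow_orderOf_eq_one t
  have htt : (t : V ≃ₗ[ZMod p] V) ((t : V ≃ₗ[ZMod p] V) v) = v := by
    have : ((t * t : H) : V ≃ₗ[ZMod p] V) v = v := by rw [ht2]; rfl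
    exact this
  have h1 : t = 1 := by
    apply hreg.free hu
    rw [map_add, htt, add_comm]
  rw [h1, orderOf_one] at ht
  omega

/-- The structure of a solvable minimal non-abelian normal subgroup centralising a maximal normal
abelian subgroup. -/
theorem quat_struct_of_der (hreg : Reg H) [Nontrivial V]
    (A : Subgroup H) (hAn : A.Normal) (hAc : IsMulCommutative A)
    (hAmax : ∀ B : Subgroup H, B.Normal → IsMulCommutative B → A ≤ B → B = A)
    (N : Subgroup H) (hNn : N.Normal) (hNle : N ≤ centralizer (A : Set H))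
    (hNna : ¬ IsMulCommutative N)
    (hNmin : ∀ M : Subgroup H, M.Normal → M ≤ N → ¬ IsMulCommutative M → M = N)
    (hder : IsMulCommutative (⁅N, N⁆ : Subgroup H)) :
    p ≠ 2 ∧ ∃ a b : H, a ∈ N ∧ b ∈ N ∧ orderOf a = 4 ∧ b * a * b⁻¹ = a⁻¹ ∧ b ^ 2 = a ^ 2 ∧
      (∀ x ∈ N, x ∈ zpowers a ∨ x * b⁻¹ ∈ zpowers a) ∧ Nonempty (N ≃* Q8) := by
  classical
  haveI : Finite (V ≃ₗ[ZMod p] V) := finite_equiv
  haveI := hNn
  haveI := hAn
  have hcentN : ∀ n ∈ N, ∀ a ∈ A, a * n = n * a := by
    intro n hn a ha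
    exact (mem_centralizer_iff.mp (hNle hn)) a ha
  have hle1 : (⁅N, N⁆ : Subgroup H) ≤ A := by
    have hcomm := comm_sup A ⁅N, N⁆ hAc hder (fun a ha b hb => hcentN b (commutator_le_left N N hb) a ha)
    have heq := hAmax _ inferInstance hcomm le_sup_left
    rw [← heq]
    exact le_sup_right
  have hcl : ∀ u v w : N, w * ⁅u, v⁆ = ⁅u, v⁆ * w := by
    intro u v w
    apply Subtype.ext
    have h1 : ((⁅u, v⁆ : N) : H) ∈ (⁅N, N⁆ : Subgroup H) := by
      show ⁅(u : H), (v : H)⁆ ∈ _
      exact commutator_mem_commutator u.2 v.2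
    exact (hcentN _ w.2 _ (hle1 h1)).symm
  haveI hnil : Group.IsNilpotent N := by
    apply Subgroup.isNilpotent_of_ker_le_center (Abelianization.of (G := N))
    rw [Abelianization.ker_of, commutator_def, commutator_le]
    intro u _ v _
    rw [mem_center_iff]
    intro w
    exact hcl u v w
  obtain ⟨q, hq, hqP⟩ := isPGroup_of_minimal N hNna hNmin
  haveI : Fact q.Prime := ⟨hq⟩
  have hq2 : q = 2 := by
    by_contra hq2
    apply hNna
    have hcyc : IsCyclic N := by
      apply Cfsg.Agent.Lib.FF.isCyclic_of_rank_le_one hqP hq2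
      intro E hE hEq
      have hEc : IsCyclic E := by
        have hmc : IsMulCommutative (E.map N.subtype : Subgroup H) := by
          refine ⟨⟨?_⟩⟩
          rintro ⟨_, x, hx, rfl⟩ ⟨_, y, hy, rfl⟩
          apply Subtype.ext
          have h1 := hE.is_comm.comm (⟨x, hx⟩ : E) ⟨y, hy⟩
          have h2 := congrArg (fun z : E => (((z : N) : H))) h1
          exact h2
        have h3 := isCyclic_of_comm hreg (E.map N.subtype) hmc
        exact isCyclic_of_surjective (E.equivMapOfInjective N.subtype N.subtype_injective).symm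
          (MulEquiv.surjective _)
      obtain ⟨g, hg⟩ := hEc.exists_generator
      have h4 := orderOf_eq_card_of_forall_mem_zpowers hg
      have h5 : orderOf g ∣ q := by
        apply orderOf_dvd_of_pow_eq_one
        apply Subtype.ext
        exact hEq g g.2
      rw [← h4]
      exact Nat.le_of_dvd hq.pos h5
    letI := hcyc.commGroup
    exact ⟨⟨fun x y => mul_comm x y⟩⟩
  subst hq2
  -- `N` has even order
  have hN2 : 2 ∣ Nat.card N := by
    by_contra h0
    obtain ⟨k, hk⟩ := IsPGroup.iff_card.mp hqP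
    have hk0 : k = 0 := by
      by_contra hk0
      apply h0
      rw [hk]
      exact dvd_pow_self 2 hk0
    rw [hk0, pow_zero] at hk
    apply hNna
    have hsub := (Nat.card_eq_one_iff_unique.mp hk).1
    exact ⟨⟨fun x y => Subsingleton.elim _ _⟩⟩
  have hp2 : p ≠ 2 := by
    rintro rfl
    have h1 := card_add_one hreg
    have h2 : 2 ∣ Nat.card H := hN2.trans (Subgroup.card_subgroup_dvd_card N)
    have h3 : 2 ∣ Nat.card V := by
      haveI : Fintype V := Fintype.ofFinite _
      have h3 := Module.card_eq_pow_finrank (K := ZMod 2) (V := V)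
      rw [ZMod.card] at h3
      rw [Nat.card_eq_fintype_card, h3]
      apply dvd_pow_self
      have := Module.finrank_pos (R := ZMod 2) (M := V)
      omega
    omega
  have hU : ∃! x : N, orderOf x = 2 := by
    obtain ⟨x, hx⟩ := exists_prime_orderOf_dvd_card' (G := N) 2 hN2
    refine ⟨x, hx, fun y hy => ?_⟩
    apply Subtype.ext
    apply Subtype.ext
    apply LinearEquiv.ext
    intro v
    have hx' : orderOf (x : H) = 2 := by rw [Subgroup.orderOf_coe]; exact hx
    have hy' : orderOf (y : H) = 2 := by rw [Subgroup.orderOf_coe]; exact hy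
    rw [involution_eq_neg hreg _ hx', involution_eq_neg hreg _ hy']
  obtain ⟨a, b, n, hn, ha, hb, hba, hb2, hcov⟩ :=
    Cfsg.Agent.Lib.InvolChar.exists_quat_pres hqP hNna hU
  -- class two forces `n = 2`
  have hn2 : n = 2 := by
    have h1 : ⁅a, b⁆ = a ^ 2 := by
      rw [commutatorElement_def, sq, mul_assoc, mul_assoc]
      congr 1
      have h2 : b * a⁻¹ * b⁻¹ = (b * a * b⁻¹)⁻¹ := by group
      rw [← mul_assoc, h2, hba, inv_inv]
    have h2 := hcl a b b
    rw [h1] at h2
    have h3 : b * a ^ 2 * b⁻¹ = a ^ 2 := by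
      rw [h2]
      group
    have h4 : b * a ^ 2 * b⁻¹ = (a⁻¹) ^ 2 := by
      rw [← hba]
      simp only [sq]
      group
    have h5 : a ^ 4 = 1 := by
      have h6 : (a⁻¹) ^ 2 = a ^ 2 := h4.symm.trans h3
      have h7 : a ^ 4 = a ^ 2 * a ^ 2 := by rw [← pow_add]
      rw [h7]
      nth_rewrite 1 [← h6]
      simp [sq]
    have h6 : 2 ^ n ∣ 2 ^ 2 := by
      rw [← ha]
      exact orderOf_dvd_of_pow_eq_one h5
    have h7 := (Nat.pow_dvd_pow_iff_le_right (by norm_num)).mp h6
    omega
  subst hn2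
  have hao : orderOf a = 4 := by rw [ha]; norm_num
  have hb2' : b ^ 2 = a ^ 2 := hb2
  refine ⟨hp2, (a : H), (b : H), a.2, b.2, by rw [Subgroup.orderOf_coe]; exact hao,
    congrArg Subtype.val hba, congrArg Subtype.val hb2', ?_, ?_⟩
  · intro x hx
    rcases hcov ⟨x, hx⟩ with h | h
    · left
      obtain ⟨k, hk⟩ := h
      exact ⟨k, by simpa using congrArg Subtype.val hk⟩
    · right
      obtain ⟨k, hk⟩ := h
      exact ⟨k, by simpa using congrArg Subtype.val hk⟩
  · -- the isomorphism
    have ht : a ^ (2 * 2) = 1 := by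
      have : a ^ (2 * 2) = a ^ orderOf a := by rw [hao]
      rw [this]
      exact pow_orderOf_eq_one a
    let f := Cfsg.Agent.Lib.Classical.Quat.quatHom (n := 2) a b ht hb2' hba
    have hinj : Function.Injective f :=
      Cfsg.Agent.Lib.Classical.Quat.quatHom_injective a b ht hb2' hba (by rw [hao]) le_rfl
    have hpow : ∀ x ∈ zpowers a, ∃ i : ZMod (2 * 2), x = a ^ i.val := by
      intro x hx
      obtain ⟨k, hk⟩ := (mem_powers_iff_mem_zpowers).mpr hx
      have hk' : x = a ^ k := hk.symm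
      refine ⟨(k : ZMod (2 * 2)), ?_⟩
      rw [hk', ZMod.val_natCast, ← pow_mod_orderOf, hao]
    have hsurj : Function.Surjective f := by
      intro x
      rcases hcov x with h | h
      · obtain ⟨i, hi⟩ := hpow x h
        exact ⟨QuaternionGroup.a i, hi.symm⟩
      · obtain ⟨i, hi⟩ := hpow _ h
        refine ⟨QuaternionGroup.xa (- i), ?_⟩
        have h5 : x = a ^ i.val * b := by
          rw [← hi]
          group
        have h6 : f (QuaternionGroup.xa (-i)) = b * a ^ (-i).val :=
          Cfsg.Agent.Lib.Classical.Quat.quatHom_xa a b ht hb2' hba (-i)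
        rw [h6, h5]
        have h7 : a ^ (-i).val = (a ^ i.val)⁻¹ :=
          Cfsg.Agent.Lib.Classical.Quat.eZ_neg a ht i
        rw [h7]
        have h8 : ∀ m : ℕ, a ^ m * b = b * (a ^ m)⁻¹ := by
          intro m
          have h9 : a * b = b * a⁻¹ := by
            calc a * b = (b * a * b⁻¹)⁻¹ * b := by rw [hba, inv_inv]
              _ = b * a⁻¹ := by group
          induction m with
          | zero => simp
          | succ m ih =>
            rw [pow_succ, mul_assoc, h9, ← mul_assoc, ih, mul_assoc, ← mul_inv_rev, ← pow_succ', pow_succ]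
        exact (h8 _).symm
    exact ⟨(MulEquiv.ofBijective f ⟨hinj, hsurj⟩).symm⟩


/-- The structure of a solvable minimal non-abelian normal subgroup centralising a maximal normal
abelian subgroup. -/
theorem quat_struct (hreg : Reg H) [Nontrivial V] (hsolv : Group.IsSolvable H)
    (A : Subgroup H) (hAn : A.Normal) (hAc : IsMulCommutative A)
    (hAmax : ∀ B : Subgroup H, B.Normal → IsMulCommutative B → A ≤ B → B = A)
    (N : Subgroup H) (hNn : N.Normal) (hNle : N ≤ centralizer (A : Set H))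
    (hNna : ¬ IsMulCommutative N)
    (hNmin : ∀ M : Subgroup H, M.Normal → M ≤ N → ¬ IsMulCommutative M → M = N) :
    p ≠ 2 ∧ ∃ a b : H, a ∈ N ∧ b ∈ N ∧ orderOf a = 4 ∧ b * a * b⁻¹ = a⁻¹ ∧ b ^ 2 = a ^ 2 ∧
      (∀ x ∈ N, x ∈ zpowers a ∨ x * b⁻¹ ∈ zpowers a) ∧ Nonempty (N ≃* Q8) := by
  classical
  haveI : Finite (V ≃ₗ[ZMod p] V) := finite_equiv
  haveI := hNn
  have hder : IsMulCommutative (⁅N, N⁆ : Subgroup H) := by
    by_contra hcon
    have heq := hNmin _ inferInstance (commutator_le_left N N) hcon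
    obtain ⟨n, hn⟩ := (isSolvable_def H).1 hsolv
    have hle : ∀ k, N ≤ derivedSeries H k := by
      intro k
      induction k with
      | zero => exact le_top
      | succ k ih =>
        rw [derivedSeries_succ, ← heq]
        exact commutator_mono ih ih
    have h0 : N ≤ ⊥ := hn ▸ hle n
    apply hNna
    refine ⟨⟨fun x y => Subtype.ext ?_⟩⟩
    have hx : (x : H) = 1 := by simpa using h0 x.2
    have hy : (y : H) = 1 := by simpa using h0 y.2
    show (x : H) * (y : H) = (y : H) * (x : H)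
    rw [hx, hy]
  exact quat_struct_of_der hreg A hAn hAc hAmax N hNn hNle hNna hNmin hder

/-- The numerical conclusion in terms of the data. -/
theorem card_cases_of_struct (hreg : Reg H) [Nontrivial V] (hp2 : p ≠ 2)
    (hI : ∀ A : Subgroup H, A.Normal → IsCyclic A → ∃ W : Submodule (ZMod p) V, W ≠ ⊥ ∧ W ≠ ⊤ ∧
      ∀ a ∈ A, ∀ v ∈ W, ((a : H) : V ≃ₗ[ZMod p] V) v ∈ W)
    (N : Subgroup H) (hNn : N.Normal) (a b : H) (haN : a ∈ N) (hbN : b ∈ N)
    (hao : orderOf a = 4) (hba : b * a * b⁻¹ = a⁻¹) (hb2 : b ^ 2 = a ^ 2)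
    (hcov : ∀ x ∈ N, x ∈ zpowers a ∨ x * b⁻¹ ∈ zpowers a) (e : N ≃* Q8) :
    Nat.card V = 25 ∨ Nat.card V = 49 ∨ Nat.card V = 121 ∨ Nat.card V = 529 := by
  classical
  haveI : Finite (V ≃ₗ[ZMod p] V) := finite_equiv
  haveI := hNn
  haveI : Fintype V := Fintype.ofFinite _
  set X : V ≃ₗ[ZMod p] V := (a : V ≃ₗ[ZMod p] V) with hX
  set Y : V ≃ₗ[ZMod p] V := (b : V ≃ₗ[ZMod p] V) with hY
  have ha4 : a ^ 4 = 1 := by rw [← hao]; exact pow_orderOf_eq_one a
  have ha2ne : a ^ 2 ≠ 1 := pow_ne_one_of_lt_orderOf (by norm_num) (by omega)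
  have ha2o : orderOf (a ^ 2) = 2 := by
    apply orderOf_eq_prime
    · rw [← pow_mul]; exact ha4
    · exact ha2ne
  have hXX : ∀ v, X (X v) = -v := by
    intro v
    have h1 := involution_eq_neg hreg (a ^ 2) ha2o v
    rw [sq] at h1
    exact h1
  have hYY : ∀ v, Y (Y v) = -v := by
    intro v
    have h1 := involution_eq_neg hreg (a ^ 2) ha2o v
    rw [← hb2, sq] at h1
    exact h1
  have hinvX : ∀ v, ((a⁻¹ : H) : V ≃ₗ[ZMod p] V) v = -X v := by
    intro v
    have h1 : (a : V ≃ₗ[ZMod p] V) (((a⁻¹ : H) : V ≃ₗ[ZMod p] V) v) = v := by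
      show ((a * a⁻¹ : H) : V ≃ₗ[ZMod p] V) v = v
      rw [mul_inv_cancel]
      rfl
    have h2 := hXX (((a⁻¹ : H) : V ≃ₗ[ZMod p] V) v)
    have h3 : X (((a⁻¹ : H) : V ≃ₗ[ZMod p] V) v) = v := h1
    rw [h3] at h2
    rw [h2, neg_neg]
  have hYX : ∀ v, Y (X v) = -X (Y v) := by
    intro v
    have h1 : b * a = a⁻¹ * b := by
      rw [← hba]
      group
    have h2 : ((b * a : H) : V ≃ₗ[ZMod p] V) v = ((a⁻¹ * b : H) : V ≃ₗ[ZMod p] V) v := by rw [h1]
    have h3 : ((a⁻¹ * b : H) : V ≃ₗ[ZMod p] V) v = ((a⁻¹ : H) : V ≃ₗ[ZMod p] V) (Y v) := rfl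
    rw [h3, hinvX] at h2
    exact h2
  obtain ⟨α, β, hαβ⟩ := ZMod.sq_add_sq p (-1 : ZMod p)
  let ω : V →ₗ[ZMod p] V := α • X.toLinearMap + β • Y.toLinearMap
  have hω : ∀ v, ω v = α • X v + β • Y v := fun _ => rfl
  have hωω : ∀ v, ω (ω v) = v := by
    intro v
    simp only [hω, map_add, map_smul, hXX, hYY, hYX]
    calc _ = (-(α ^ 2 + β ^ 2)) • v := by module
      _ = v := by rw [hαβ]; simp
  let τ : V ≃ₗ[ZMod p] V := Y.trans X
  have hτ : ∀ v, τ v = X (Y v) := fun _ => rfl
  have hτω : ∀ v, τ (ω v) = -ω (τ v) := by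
    intro v
    simp only [hτ, hω, map_add, map_smul, hYY, hYX, hXX, map_neg]
    exact (by module)
  let W : Submodule (ZMod p) V := LinearMap.ker (ω - LinearMap.id)
  let W' : Submodule (ZMod p) V := LinearMap.ker (ω + LinearMap.id)
  have hW : ∀ v, v ∈ W ↔ ω v = v := by
    intro v
    simp [W, sub_eq_zero]
  have hW' : ∀ v, v ∈ W' ↔ ω v = -v := by
    intro v
    simp [W', add_eq_zero_iff_eq_neg]
  have h2ne : (2 : ZMod p) ≠ 0 := by
    intro h0
    have h1 : ((2 : ℕ) : ZMod p) = 0 := by exact_mod_cast h0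
    rw [ZMod.natCast_eq_zero_iff] at h1
    have hpp : p.Prime := Fact.out
    have := (Nat.prime_dvd_prime_iff_eq hpp Nat.prime_two).mp h1
    exact hp2 this
  have hinf : W ⊓ W' = ⊥ := by
    rw [Submodule.eq_bot_iff]
    rintro v ⟨h1, h2⟩
    have h3 := (hW v).1 h1
    have h4 := (hW' v).1 h2
    rw [h3] at h4
    have h5 : (2 : ZMod p) • v = 0 := by
      rw [two_smul]
      nth_rewrite 1 [h4]
      simp
    exact (smul_eq_zero.mp h5).resolve_left h2ne
  have hsup : W ⊔ W' = ⊤ := by
    rw [eq_top_iff]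
    intro v _
    refine Submodule.mem_sup.2 ⟨(2⁻¹ : ZMod p) • (v + ω v), ?_, (2⁻¹ : ZMod p) • (v - ω v), ?_, ?_⟩
    · apply W.smul_mem
      rw [hW, map_add, hωω, add_comm]
    · apply W'.smul_mem
      rw [hW', map_sub, hωω]
      abel
    · rw [← smul_add]
      have : v + ω v + (v - ω v) = (2 : ZMod p) • v := by
        rw [two_smul]
        abel
      rw [this, smul_smul, inv_mul_cancel₀ h2ne, one_smul]
  have hmap : W.map τ.toLinearMap = W' := by
    apply le_antisymm
    · rintro _ ⟨v, hv, rfl⟩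
      rw [hW'] 
      have h1 := hτω v
      rw [(hW v).1 hv] at h1
      show ω (τ v) = - τ v
      calc ω (τ v) = -(-ω (τ v)) := (neg_neg _).symm
        _ = - τ v := by rw [← h1]
    · intro u hu
      refine ⟨τ.symm u, ?_, by simp⟩
      rw [SetLike.mem_coe, hW]
      apply τ.injective
      rw [hτω]
      simp only [LinearEquiv.apply_symm_apply]
      rw [(hW' u).1 hu, neg_neg]
  have hfr : Module.finrank (ZMod p) W' = Module.finrank (ZMod p) W := by
    rw [← hmap]
    exact LinearEquiv.finrank_map_eq τ W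
  have hdim := Submodule.finrank_sup_add_finrank_inf_eq W W'
  rw [hsup, hinf, finrank_top, finrank_bot, hfr, add_zero] at hdim
  set r := Module.finrank (ZMod p) W with hr
  have hVr : Module.finrank (ZMod p) V = 2 * r := by omega
  have hpp : p.Prime := Fact.out
  have hp3 : 3 ≤ p := by
    have h1 := hpp.two_le
    omega
  have hr1 : 1 ≤ r := by
    have h1 : 0 < Module.finrank (ZMod p) V := Module.finrank_pos
    omega
  have hVcard : Nat.card V = p ^ r * p ^ r := by
    have h3 := Module.card_eq_pow_finrank (K := ZMod p) (V := V)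
    rw [ZMod.card] at h3
    rw [Nat.card_eq_fintype_card, h3, hVr, two_mul, pow_add]
  have hcardH := card_add_one hreg
  -- the centralizer
  have hDinv : Inv (centralizer (N : Set H)) W := by
    intro d hd v hv
    have h1 : a * d = d * a := mem_centralizer_iff.mp hd a haN
    have h2 : b * d = d * b := mem_centralizer_iff.mp hd b hbN
    have h3 : X ((d : V ≃ₗ[ZMod p] V) v) = (d : V ≃ₗ[ZMod p] V) (X v) := by
      have : ((a * d : H) : V ≃ₗ[ZMod p] V) v = ((d * a : H) : V ≃ₗ[ZMod p] V) v := by rw [h1]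
      exact this
    have h4 : Y ((d : V ≃ₗ[ZMod p] V) v) = (d : V ≃ₗ[ZMod p] V) (Y v) := by
      have : ((b * d : H) : V ≃ₗ[ZMod p] V) v = ((d * b : H) : V ≃ₗ[ZMod p] V) v := by rw [h2]
      exact this
    have h5 : ω ((d : V ≃ₗ[ZMod p] V) v) = (d : V ≃ₗ[ZMod p] V) (ω v) := by
      rw [hω, hω, h3, h4, map_add, map_smul, map_smul]
    rw [hW, h5, (hW v).1 hv]
  have hDd := card_dvd hreg (centralizer (N : Set H)) W hDinv
  -- the action on `N`
  let ψ : H →* MulAut N := MulAut.conjNormal
  have hker : ψ.ker = centralizer (N : Set H) := by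
    ext x
    rw [MonoidHom.mem_ker, mem_centralizer_iff]
    constructor
    · intro h n hn
      have := DFunLike.congr_fun h ⟨n, hn⟩
      have h2 : x * n * x⁻¹ = n := congrArg Subtype.val this
      calc n * x = (x * n * x⁻¹) * x := by rw [h2]
        _ = x * n := by group
    · intro h
      refine MulEquiv.ext fun n => Subtype.ext ?_
      show x * n * x⁻¹ = n
      rw [← h n n.2]
      group
  have hcardm : Nat.card H = Nat.card (centralizer (N : Set H)) * Nat.card ψ.range := by
    have h := ψ.ker.card_mul_index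
    rw [Subgroup.index_ker, hker] at h
    exact h.symm
  have hm24 : Nat.card ψ.range ∣ 24 := by
    have h1 : Nat.card ψ.range ∣ Nat.card (MulAut N) := Subgroup.card_subgroup_dvd_card _
    rw [Nat.card_congr (MulAut.congr e).toEquiv] at h1
    exact h1.trans card_mulAut_dvd
  set q₀ := p ^ r with hq₀
  have hq3 : 3 ≤ q₀ := le_trans hp3 (Nat.le_self_pow (by omega) p)
  obtain ⟨c, hc⟩ := hDd
  set dd := Nat.card (centralizer (N : Set H)) with hdd
  set m := Nat.card ψ.range with hm
  have hddpos : 0 < dd := Nat.card_pos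
  have hmdiv : q₀ + 1 ∣ m := by
    refine ⟨c, ?_⟩
    have h1 : dd * m + 1 = q₀ * q₀ := by
      rw [← hcardm, hcardH, hVcard]
    obtain ⟨u, hu⟩ : ∃ u, q₀ = u + 1 := ⟨q₀ - 1, by omega⟩
    have h2 : u = dd * c := by
      rw [← hc, hu]
      rfl
    apply Nat.eq_of_mul_eq_mul_left hddpos
    have h3 : dd * m = (q₀ + 1) * (dd * c) := by
      rw [hu] at h1 ⊢
      rw [← h2]
      nlinarith
    rw [h3]
    ring
  have hq24 : q₀ + 1 ∣ 24 := hmdiv.trans hm24
  have hle : q₀ + 1 ≤ 24 := Nat.le_of_dvd (by norm_num) hq24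
  have hcases : q₀ = 3 ∨ q₀ = 5 ∨ q₀ = 7 ∨ q₀ = 11 ∨ q₀ = 23 := by
    have key : ∀ n : ℕ, 3 ≤ n → n + 1 ∣ 24 → n = 3 ∨ n = 5 ∨ n = 7 ∨ n = 11 ∨ n = 23 := by
      intro n h1 h2
      have h3 := Nat.le_of_dvd (by norm_num) h2
      have h4 : n ≤ 23 := by omega
      interval_cases n <;> omega
    exact key q₀ hq3 hq24
  have hne3 : q₀ ≠ 3 := by
    intro h3
    have hr1' : r = 1 := by
      by_contra hne
      have h4 : 2 ≤ r := by omega
      have h5 : p ^ 2 ≤ p ^ r := Nat.pow_le_pow_right (by omega) h4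
      have h6 : 3 * 3 ≤ p ^ 2 := by nlinarith
      rw [hq₀] at h3
      omega
    have hp3' : p = 3 := by
      rw [hq₀, hr1', pow_one] at h3
      exact h3
    have hH8 : Nat.card H = 8 := by
      have h1 := hcardH
      rw [hVcard, h3] at h1
      omega
    have hKcard : Nat.card (zpowers a) = 4 := by
      rw [Nat.card_zpowers, hao]
    have hidx : (zpowers a).index = 2 := by
      have h1 := (zpowers a).card_mul_index
      rw [hKcard, hH8] at h1
      omega
    haveI hKn : (zpowers a).Normal := Subgroup.normal_of_index_eq_two hidx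
    obtain ⟨W₁, h1, h2, h3'⟩ := hI (zpowers a) hKn inferInstance
    have hd := card_dvd hreg (zpowers a) W₁ h3'
    rw [hKcard] at hd
    have hk1 : 0 < Module.finrank (ZMod p) W₁ :=
      Module.finrank_pos_iff.mpr (Submodule.nontrivial_iff_ne_bot.mpr h1)
    have hk2 : Module.finrank (ZMod p) W₁ < Module.finrank (ZMod p) V := Submodule.finrank_lt h2
    rw [hVr, hr1'] at hk2
    have hk : Module.finrank (ZMod p) W₁ = 1 := by omega
    rw [hk, hp3'] at hd
    revert hd
    decide
  have hcard2 : Nat.card V = q₀ * q₀ := hVcard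
  rcases hcases with h | h | h | h | h
  · exact absurd h hne3
  · left
    rw [hcard2, h]
  · right; left
    rw [hcard2, h]
  · right; right; left
    rw [hcard2, h]
  · right; right; right
    rw [hcard2, h]

/-- The main theorem for solvable groups. -/
theorem card_cases (hreg : Reg H)
    (hI : ∀ A : Subgroup H, A.Normal → IsCyclic A → ∃ W : Submodule (ZMod p) V, W ≠ ⊥ ∧ W ≠ ⊤ ∧
      ∀ a ∈ A, ∀ v ∈ W, ((a : H) : V ≃ₗ[ZMod p] V) v ∈ W)
    (hsolv : Group.IsSolvable H) :
    Nat.card V = 25 ∨ Nat.card V = 49 ∨ Nat.card V = 121 ∨ Nat.card V = 529 := by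
  classical
  haveI : Finite (V ≃ₗ[ZMod p] V) := finite_equiv
  haveI := nontrivial_of_hI hI
  haveI : Finite (Subgroup H) := Finite.of_injective (fun K => (K : Set H)) SetLike.coe_injective
  obtain ⟨A, ⟨hAn, hAc⟩, hAm⟩ := (wellFounded_gt (α := Subgroup H)).has_min
    {B : Subgroup H | B.Normal ∧ IsMulCommutative B} ⟨⊥, inferInstance, ⟨⟨fun x y => by
      apply Subtype.ext
      have hx : (x : H) = 1 := Subgroup.mem_bot.mp x.2
      have hy : (y : H) = 1 := Subgroup.mem_bot.mp y.2
      show (x : H) * (y : H) = (y : H) * (x : H)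
      rw [hx, hy]⟩⟩⟩
  have hAmax : ∀ B : Subgroup H, B.Normal → IsMulCommutative B → A ≤ B → B = A := by
    intro B h1 h2 h3
    by_contra hne
    exact hAm B ⟨h1, h2⟩ (lt_of_le_of_ne h3 (Ne.symm hne))
  have hC := not_comm_centralizer hreg hI A hAn hAc hAmax
  haveI := hAn
  obtain ⟨N, ⟨hNn, hNle, hNna⟩, hNm⟩ := (wellFounded_lt (α := Subgroup H)).has_min
    {M : Subgroup H | M.Normal ∧ M ≤ centralizer (A : Set H) ∧ ¬ IsMulCommutative M}
    ⟨centralizer (A : Set H), inferInstance, le_rfl, hC⟩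
  have hNmin : ∀ M : Subgroup H, M.Normal → M ≤ N → ¬ IsMulCommutative M → M = N := by
    intro M h1 h2 h3
    by_contra hne
    exact hNm M ⟨h1, h2.trans hNle, h3⟩ (lt_of_le_of_ne h2 hne)
  obtain ⟨hp2, a, b, haN, hbN, hao, hba, hb2, hcov, ⟨e⟩⟩ :=
    quat_struct hreg hsolv A hAn hAc hAmax N hNn hNle hNna hNmin
  exact card_cases_of_struct hreg hp2 hI N hNn a b haN hbN hao hba hb2 hcov e

end Cfsg.Agent.Lib.Perm.RegLin
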