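import Mathlib

set_option autoImplicit false

namespace Cfsg.Agent.Lib.Perm

section SharpCert

variable {p : ℕ} [Fact p.Prime]

local notation "VV" => (Fin 2 → ZMod p)
local notation "GG" => Matrix.GeneralLinearGroup (Fin 2) (ZMod p)
local notation "MM" => Matrix (Fin 2) (Fin 2) (ZMod p)

/-- A linear map fixing the two standard basis vectors is the identity. -/
private lemma glTwo_eq_one_of_fix (t : GG)
    (h1 : (t : MM).mulVec ![1, 0] = ![1, 0]) (h2 : (t : MM).mulVec ![0, 1] = ![0, 1]) : t = 1 := by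
  apply Units.ext
  ext i j
  have h1i := congrFun h1 i
  have h2i := congrFun h2 i
  simp only [Matrix.mulVec, dotProduct, Fin.sum_univ_two] at h1i h2i
  fin_cases i <;> fin_cases j <;> simp_all

private lemma mulVec_ne_zero_of_unit (g : GG) (v : VV) (hv : v ≠ 0) : (g : MM).mulVec v ≠ 0 := by
  intro h
  apply hv
  have := congrArg ((g⁻¹ : GG) : MM).mulVec h
  rw [Matrix.mulVec_mulVec, Matrix.mulVec_zero] at this
  have h2 : ((g⁻¹ : GG) : MM) * (g : MM) = 1 := by
    rw [← Units.val_mul]; simp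
  rwa [h2, Matrix.one_mulVec] at this

private lemma mulVec_mul_unit (g h : GG) (v : VV) :
    ((g * h : GG) : MM).mulVec v = (g : MM).mulVec ((h : MM).mulVec v) := by
  rw [Matrix.mulVec_mulVec, Units.val_mul]

private lemma mulVec_inv_mulVec (g : GG) (v : VV) :
    ((g⁻¹ : GG) : MM).mulVec ((g : MM).mulVec v) = v := by
  rw [← mulVec_mul_unit]; simp

private lemma mulVec_mulVec_inv (g : GG) (v : VV) :
    (g : MM).mulVec (((g⁻¹ : GG) : MM).mulVec v) = v := by
  rw [← mulVec_mul_unit]; simp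

/-- The abstract certificate: `col v` is the second column of a matrix with first column `v`. -/
theorem regular_of_col_cert (S : Set GG) (col : VV → VV) (rk : VV → ℕ)
    (h1 : col ![1, 0] = ![0, 1])
    (h2 : ∀ g ∈ S, ∀ v : VV, v ≠ 0 → (g : MM).mulVec (col v) = col ((g : MM).mulVec v))
    (h3 : ∀ v : VV, v ≠ 0 → v = ![1, 0] ∨
      ∃ g ∈ S, ∃ u : VV, u ≠ 0 ∧ (g : MM).mulVec u = v ∧ rk u < rk v) :
    Nat.card (Subgroup.closure S) = p ^ 2 - 1 ∧
      ∀ v w : VV, v ≠ 0 → w ≠ 0 →
        ∃! h : Subgroup.closure S, Matrix.mulVec ((h : GG) : MM) v = w := by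
  classical
  -- the subgroup respecting `col`
  let K : Subgroup GG :=
    { carrier := {g | ∀ v : VV, v ≠ 0 → (g : MM).mulVec (col v) = col ((g : MM).mulVec v)}
      one_mem' := by
        intro v _
        simp
      mul_mem' := by
        intro a b ha hb v hv
        rw [mulVec_mul_unit, hb v hv, ha _ (mulVec_ne_zero_of_unit b v hv), mulVec_mul_unit]
      inv_mem' := by
        intro a ha v hv
        have hu := mulVec_ne_zero_of_unit (a⁻¹) v hv
        have := ha _ hu
        rw [mulVec_mulVec_inv] at this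
        rw [← this, mulVec_inv_mulVec] }
  have hK : Subgroup.closure S ≤ K := (Subgroup.closure_le _).mpr (fun g hg v hv => h2 g hg v hv)
  have he1 : (![1, 0] : VV) ≠ 0 := by
    intro h
    have := congrFun h 0
    simp at this
  -- transitivity
  have htr : ∀ n : ℕ, ∀ v : VV, v ≠ 0 → rk v = n →
      ∃ h ∈ Subgroup.closure S, ((h : GG) : MM).mulVec ![1, 0] = v := by
    intro n
    induction n using Nat.strong_induction_on with
    | _ n ih =>
      intro v hv hn
      rcases h3 v hv with rfl | ⟨g, hg, u, hu, hgu, hlt⟩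
      · exact ⟨1, Subgroup.one_mem _, by simp⟩
      · obtain ⟨h, hh, hhu⟩ := ih (rk u) (by omega) u hu rfl
        refine ⟨g * h, Subgroup.mul_mem _ (Subgroup.subset_closure hg) hh, ?_⟩
        rw [mulVec_mul_unit, hhu, hgu]
  have htr' : ∀ v : VV, v ≠ 0 → ∃ h ∈ Subgroup.closure S, ((h : GG) : MM).mulVec ![1, 0] = v :=
    fun v hv => htr _ v hv rfl
  -- freeness at the base vector
  have hfree0 : ∀ t ∈ Subgroup.closure S, ((t : GG) : MM).mulVec ![1, 0] = ![1, 0] → t = 1 := by
    intro t ht hfix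
    have htK := hK ht
    have h2' := htK ![1, 0] he1
    rw [hfix, h1] at h2'
    exact glTwo_eq_one_of_fix t hfix h2'
  have hfree : ∀ t ∈ Subgroup.closure S, ∀ v : VV, v ≠ 0 → ((t : GG) : MM).mulVec v = v → t = 1 := by
    intro t ht v hv hfix
    obtain ⟨k, hk, hkv⟩ := htr' v hv
    have : k⁻¹ * t * k = 1 := by
      apply hfree0
      · exact Subgroup.mul_mem _ (Subgroup.mul_mem _ (Subgroup.inv_mem _ hk) ht) hk
      · rw [mulVec_mul_unit, mulVec_mul_unit, hkv, hfix, ← hkv, mulVec_inv_mulVec]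
    have h4 : t = k * (k⁻¹ * t * k) * k⁻¹ := by group
    rw [h4, this]; simp
  constructor
  · -- cardinality through the orbit map
    let f : Subgroup.closure S → {v : VV // v ≠ 0} := fun h =>
      ⟨((h : GG) : MM).mulVec ![1, 0], mulVec_ne_zero_of_unit _ _ he1⟩
    have hf : Function.Bijective f := by
      constructor
      · intro a b hab
        have hab' : ((a : GG) : MM).mulVec ![1, 0] = ((b : GG) : MM).mulVec ![1, 0] :=
          congrArg Subtype.val hab
        have : (b⁻¹ * a : Subgroup.closure S) = 1 := by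
          apply Subtype.ext
          apply hfree0 _ (b⁻¹ * a : Subgroup.closure S).2
          simp only [Subgroup.coe_mul, InvMemClass.coe_inv]
          rw [mulVec_mul_unit, hab', mulVec_inv_mulVec]
        exact (inv_mul_eq_one.mp this).symm
      · rintro ⟨v, hv⟩
        obtain ⟨h, hh, hhv⟩ := htr' v hv
        exact ⟨⟨h, hh⟩, Subtype.ext hhv⟩
    have hcard := Nat.card_congr (Equiv.ofBijective f hf)
    rw [hcard]
    have : Nat.card {v : VV // v ≠ 0} = Nat.card VV - 1 := by
      have h5 := Nat.card_congr (Equiv.sumCompl (fun v : VV => v = 0))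
      rw [Nat.card_sum] at h5
      have h6 : Nat.card {v : VV // v = 0} = 1 := by simp
      have h7 : Nat.card {v : VV // ¬ v = 0} = Nat.card {v : VV // v ≠ 0} := rfl
      omega
    rw [this]
    simp [Nat.card_eq_fintype_card, ZMod.card]
  · intro v w hv hw
    obtain ⟨k1, hk1, hk1v⟩ := htr' v hv
    obtain ⟨k2, hk2, hk2w⟩ := htr' w hw
    refine ⟨⟨k2 * k1⁻¹, Subgroup.mul_mem _ hk2 (Subgroup.inv_mem _ hk1)⟩, ?_, ?_⟩
    · show ((k2 * k1⁻¹ : GG) : MM).mulVec v = w
      rw [mulVec_mul_unit, ← hk1v, mulVec_inv_mulVec, hk2w]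
    · intro y hy
      have hy' : ((y : GG) : MM).mulVec v = w := hy
      apply Subtype.ext
      show (y : GG) = k2 * k1⁻¹
      have : (k2 * k1⁻¹)⁻¹ * (y : GG) = 1 := by
        apply hfree _ (Subgroup.mul_mem _
          (Subgroup.inv_mem _ (Subgroup.mul_mem _ hk2 (Subgroup.inv_mem _ hk1))) y.2) v hv
        rw [mulVec_mul_unit, hy']
        have h8 : ((k2 * k1⁻¹ : GG) : MM).mulVec v = w := by
          rw [mulVec_mul_unit, ← hk1v, mulVec_inv_mulVec, hk2w]
        rw [← h8, mulVec_inv_mulVec]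
      exact (inv_mul_eq_one.mp this).symm

end SharpCert

/-! ### Number-coded form, checked by evaluation -/

/-- Boolean bounded universal quantifier, evaluated by structural recursion. -/
def allBelow (f : ℕ → Bool) : ℕ → Bool
  | 0 => true
  | n + 1 => f n && allBelow f n

theorem allBelow_spec {f : ℕ → Bool} {n : ℕ} (h : allBelow f n = true) :
    ∀ c, c < n → f c = true := by
  induction n with
  | zero => intro c hc; omega
  | succ n ih =>
    simp only [allBelow, Bool.and_eq_true] at h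
    intro c hc
    rcases Nat.lt_succ_iff_lt_or_eq.mp hc with h' | rfl
    · exact ih h.2 c h'
    · exact h.1

/-- Action of the matrix `a b; c d` on codes of vectors. -/
def mulCode (p : ℕ) (t : ℕ × ℕ × ℕ × ℕ) (x : ℕ) : ℕ :=
  (t.1 * (x % p) + t.2.1 * (x / p)) % p + p * ((t.2.2.1 * (x % p) + t.2.2.2 * (x / p)) % p)

/-- Table lookup in a number with digits in base `B`. -/
def digitAt (B N i : ℕ) : ℕ := N / B ^ i % B

/-- The complete check, run by the kernel. -/
def sharpCheck (p : ℕ) (L : List (ℕ × ℕ × ℕ × ℕ)) (T R P : ℕ → ℕ) : Bool :=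
  (T 1 == p) &&
  L.all (fun t => allBelow (fun x => x == 0 || T (mulCode p t x) == mulCode p t (T x)) (p * p)) &&
  allBelow (fun x => x == 0 || x == 1 ||
    (P x != 0 && decide (P x < p * p) && decide (R (P x) < R x) &&
      L.any (fun t => mulCode p t (P x) == x))) (p * p)

section Coded

variable {p : ℕ} [Fact p.Prime]

local notation "VV" => (Fin 2 → ZMod p)
local notation "GG" => Matrix.GeneralLinearGroup (Fin 2) (ZMod p)
local notation "MM" => Matrix (Fin 2) (Fin 2) (ZMod p)

/-- Vector with a given code. -/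
def vecOfCode (p : ℕ) (c : ℕ) : Fin 2 → ZMod p := ![((c % p : ℕ) : ZMod p), ((c / p : ℕ) : ZMod p)]

/-- Code of a vector. -/
def codeOfVec (v : Fin 2 → ZMod p) : ℕ := (v 0).val + p * (v 1).val

private lemma p_pos : 0 < p := (Fact.out : p.Prime).pos

lemma codeOfVec_lt (v : VV) : codeOfVec v < p * p := by
  unfold codeOfVec
  have h0 := ZMod.val_lt (v 0)
  have h1 := ZMod.val_lt (v 1)
  nlinarith

lemma vecOfCode_codeOfVec (v : VV) : vecOfCode p (codeOfVec v) = v := by
  have hp : 0 < p := p_pos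
  have h0 := ZMod.val_lt (v 0)
  ext i
  fin_cases i
  · simp [vecOfCode, codeOfVec, Nat.add_mul_mod_self_left, Nat.mod_eq_of_lt h0]
  · have : ((v 0).val + p * (v 1).val) / p = (v 1).val := by
      rw [Nat.add_mul_div_left _ _ hp, Nat.div_eq_of_lt h0]; simp
    simp [vecOfCode, codeOfVec, this]

lemma codeOfVec_vecOfCode (c : ℕ) (hc : c < p * p) : codeOfVec (vecOfCode p c) = c := by
  have hp : 0 < p := p_pos
  have h1 : c / p < p := Nat.div_lt_of_lt_mul hc
  have h2 : c % p < p := Nat.mod_lt _ hp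
  simp only [codeOfVec, vecOfCode, Matrix.cons_val_zero, Matrix.cons_val_one]
  rw [ZMod.val_natCast, ZMod.val_natCast, Nat.mod_eq_of_lt h1, Nat.mod_eq_of_lt h2]
  exact Nat.mod_add_div c p

lemma codeOfVec_ne_zero (v : VV) (hv : v ≠ 0) : codeOfVec v ≠ 0 := by
  intro h
  apply hv
  have := vecOfCode_codeOfVec v
  rw [h] at this
  rw [← this]
  ext i
  fin_cases i <;> simp [vecOfCode]

lemma vecOfCode_ne_zero (c : ℕ) (hc : c < p * p) (h0 : c ≠ 0) : vecOfCode p c ≠ 0 := by
  intro h
  apply h0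
  have := codeOfVec_vecOfCode (p := p) c hc
  rw [h] at this
  rw [← this]
  simp [codeOfVec]

lemma mulCode_lt (t : ℕ × ℕ × ℕ × ℕ) (x : ℕ) : mulCode p t x < p * p := by
  have hp : 0 < p := p_pos
  unfold mulCode
  have h0 := Nat.mod_lt (t.1 * (x % p) + t.2.1 * (x / p)) hp
  have h1 := Nat.mod_lt (t.2.2.1 * (x % p) + t.2.2.2 * (x / p)) hp
  nlinarith

/-- The matrix with natural number entries. -/
def matOfCode (p : ℕ) (t : ℕ × ℕ × ℕ × ℕ) : Matrix (Fin 2) (Fin 2) (ZMod p) :=
  !![(t.1 : ZMod p), (t.2.1 : ZMod p); (t.2.2.1 : ZMod p), (t.2.2.2 : ZMod p)]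

lemma mulVec_vecOfCode (t : ℕ × ℕ × ℕ × ℕ) (x : ℕ) :
    (matOfCode p t).mulVec (vecOfCode p x) = vecOfCode p (mulCode p t x) := by
  have hp : 0 < p := p_pos
  ext i
  fin_cases i
  · simp [matOfCode, vecOfCode, mulCode, Matrix.mulVec, dotProduct, Fin.sum_univ_two,
      Nat.add_mul_mod_self_left, Nat.mod_mod]
  · have h : ((t.1 * (x % p) + t.2.1 * (x / p)) % p +
        p * ((t.2.2.1 * (x % p) + t.2.2.2 * (x / p)) % p)) / p =
        (t.2.2.1 * (x % p) + t.2.2.2 * (x / p)) % p := by
      rw [Nat.add_mul_div_left _ _ hp, Nat.div_eq_of_lt (Nat.mod_lt _ hp)]; simp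
    simp [matOfCode, vecOfCode, mulCode, Matrix.mulVec, dotProduct, Fin.sum_univ_two, h]

/-- Number-coded certificate for a regular subgroup of `GL(2,p)`. -/
theorem regular_of_sharpCheck (S : Set GG) (L : List (ℕ × ℕ × ℕ × ℕ)) (T R P : ℕ → ℕ)
    (hL : ∀ g ∈ S, ∃ t ∈ L, (g : MM) = matOfCode p t)
    (hL' : ∀ t ∈ L, ∃ g ∈ S, (g : MM) = matOfCode p t)
    (hchk : sharpCheck p L T R P = true) (hp1 : 1 < p) :
    Nat.card (Subgroup.closure S) = p ^ 2 - 1 ∧
      ∀ v w : VV, v ≠ 0 → w ≠ 0 →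
        ∃! h : Subgroup.closure S, Matrix.mulVec ((h : GG) : MM) v = w := by
  classical
  simp only [sharpCheck, Bool.and_eq_true, beq_iff_eq, List.all_eq_true] at hchk
  obtain ⟨⟨hT1, hcol⟩, hrk⟩ := hchk
  have hcode1 : codeOfVec (![1, 0] : VV) = 1 := by
    haveI : Fact (1 < p) := ⟨hp1⟩
    simp [codeOfVec, ZMod.val_one]
  refine regular_of_col_cert S (fun v => vecOfCode p (T (codeOfVec v)))
    (fun v => R (codeOfVec v)) ?_ ?_ ?_
  · show vecOfCode p (T (codeOfVec (![1, 0] : VV))) = ![0, 1]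
    rw [hcode1, hT1]
    have hp : 0 < p := p_pos
    ext i
    fin_cases i
    · simp [vecOfCode]
    · simp [vecOfCode, Nat.div_self hp]
  · intro g hg v hv
    obtain ⟨t, ht, hgt⟩ := hL g hg
    have hc := allBelow_spec (hcol t ht) (codeOfVec v) (codeOfVec_lt v)
    simp only [Bool.or_eq_true, beq_iff_eq, codeOfVec_ne_zero v hv, false_or] at hc
    show (g : MM).mulVec (vecOfCode p (T (codeOfVec v))) =
      vecOfCode p (T (codeOfVec ((g : MM).mulVec v)))
    have h1 : (g : MM).mulVec v = vecOfCode p (mulCode p t (codeOfVec v)) := by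
      conv_lhs => rw [← vecOfCode_codeOfVec v]
      rw [hgt, mulVec_vecOfCode]
    rw [h1, codeOfVec_vecOfCode _ (mulCode_lt t _), hc, hgt, mulVec_vecOfCode]
  · intro v hv
    have hc := allBelow_spec hrk (codeOfVec v) (codeOfVec_lt v)
    simp only [Bool.or_eq_true, beq_iff_eq, codeOfVec_ne_zero v hv, false_or,
      Bool.and_eq_true, bne_iff_ne, ne_eq, decide_eq_true_eq, List.any_eq_true] at hc
    rcases hc with hc | ⟨⟨⟨h0, hlt⟩, hR⟩, t, ht, hmul⟩
    · left
      rw [← vecOfCode_codeOfVec v, hc]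
      have hp : 0 < p := p_pos
      ext i
      fin_cases i
      · simp [vecOfCode, Nat.mod_eq_of_lt hp1]
      · simp [vecOfCode, Nat.div_eq_of_lt hp1]
    · right
      obtain ⟨g, hg, hgt⟩ := hL' t ht
      refine ⟨g, hg, vecOfCode p (P (codeOfVec v)), vecOfCode_ne_zero _ hlt h0, ?_, ?_⟩
      · rw [hgt, mulVec_vecOfCode, hmul, vecOfCode_codeOfVec]
      · show R (codeOfVec (vecOfCode p (P (codeOfVec v)))) < R (codeOfVec v)
        rw [codeOfVec_vecOfCode _ hlt]
        exact hR

end Coded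

end Cfsg.Agent.Lib.Perm
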