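import Mathlib

/-!
Multiple transitivity from the action of a pointwise stabiliser on the complement.
-/

set_option autoImplicit false

namespace Cfsg.Agent.Lib.Perm

open MulAction

/-- If `G` is `m`-transitive, and the pointwise stabiliser of an `m`-set is `n`-transitive on the
complement, then `G` is `(m + n)`-transitive. -/
theorem isMultiplyPretransitive_add_of_fixing {G α : Type*} [Group G] [MulAction G α]
    (s : Set α) {m n : ℕ} (hsm : s.encard = m) (hG : IsMultiplyPretransitive G α m)
    (hfix : IsMultiplyPretransitive (fixingSubgroup G s) (SubMulAction.ofFixingSubgroup G s) n) :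
    IsMultiplyPretransitive G α (m + n) := by
  classical
  have hfin : s.Finite := Set.finite_of_encard_eq_coe hsm
  have : Finite s := hfin
  have hcard : Nat.card s = m := by
    rw [Nat.card_coe_set_eq, Set.ncard, hsm]; rfl
  obtain ⟨t⟩ : Nonempty (Fin m ≃ s) := Finite.card_eq.mp (by simp [hcard])
  -- embedding of `Fin m` onto `s`
  let t' : Fin m ↪ α := ⟨fun i => (t i : α), fun i j h => t.injective (Subtype.ext h)⟩
  have ht' : ∀ i, t' i ∈ s := fun i => (t i).2
  have ht's : ∀ a ∈ s, ∃ i, t' i = a := fun a ha =>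
    ⟨t.symm ⟨a, ha⟩, by
      change ((t (t.symm ⟨a, ha⟩) : s) : α) = a
      simp⟩
  -- normal form: every embedding can be moved to have first part `t'`
  have hnf : ∀ x : Fin (m + n) ↪ α, ∃ (g : G) (z : Fin n ↪ SubMulAction.ofFixingSubgroup G s),
      (∀ i, g • x (Fin.castAdd n i) = t' i) ∧ (∀ i, g • x (Fin.natAdd m i) = (z i : α)) := by
    intro x
    let x₁ : Fin m ↪ α := (Fin.castAddEmb n).trans x
    obtain ⟨g, hg⟩ := hG.exists_smul_eq x₁ t'
    have hg' : ∀ i, g • x (Fin.castAdd n i) = t' i := fun i => DFunLike.congr_fun hg i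
    have hout : ∀ i : Fin n, g • x (Fin.natAdd m i) ∉ s := by
      intro i hi
      obtain ⟨j, hj⟩ := ht's _ hi
      rw [← hg'] at hj
      have h1 := x.injective (smul_left_cancel g hj)
      have h2 := congrArg Fin.val h1
      simp at h2
      omega
    refine ⟨g, ⟨fun i => ⟨g • x (Fin.natAdd m i), hout i⟩, ?_⟩, hg', fun i => rfl⟩
    intro i j h
    have h1 := congrArg Subtype.val h
    have h2 := x.injective (smul_left_cancel g h1)
    exact Fin.natAdd_injective _ _ h2
  refine ⟨fun x y => ?_⟩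
  obtain ⟨g₁, z₁, h1, h1'⟩ := hnf x
  obtain ⟨g₂, z₂, h2, h2'⟩ := hnf y
  obtain ⟨f, hf⟩ := hfix.exists_smul_eq z₁ z₂
  have hf' : ∀ i, (f : G) • (z₁ i : α) = (z₂ i : α) := by
    intro i
    have := DFunLike.congr_fun hf i
    exact congrArg Subtype.val this
  refine ⟨g₂⁻¹ * (f : G) * g₁, ?_⟩
  ext i
  induction i using Fin.addCases with
  | left i =>
    change (g₂⁻¹ * (f : G) * g₁) • x (Fin.castAdd n i) = y (Fin.castAdd n i)
    rw [mul_smul, mul_smul, h1]
    have h3 : (f : G) • t' i = t' i := f.2 ⟨t' i, ht' i⟩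
    rw [h3, ← h2, inv_smul_smul]
  | right i =>
    change (g₂⁻¹ * (f : G) * g₁) • x (Fin.natAdd m i) = y (Fin.natAdd m i)
    rw [mul_smul, mul_smul, h1', hf', ← h2', inv_smul_smul]

end Cfsg.Agent.Lib.Perm
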