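import Mathlib
import Cfsg.Prelude.Def_Perm
import Cfsg.Agent.Lib.Perm.CentRing4
import Cfsg.Agent.Lib.Char.Burnside

/-!
Groups of Wielandt type: primitive rank three groups of degree `2m` with permutation character
`1 + χ₁ + χ₂`, `χ₁(1) = m - 1`, `χ₂(1) = m`.
-/

set_option autoImplicit false
set_option linter.style.haveILetI false

namespace Cfsg.Agent.Lib.Perm.Wielandt

theorem num_aux (m n R S : ℤ) (hm : 1 ≤ m) (hn : 0 < n) (hn2 : n < 2 * m - 1)
    (h1 : n + (m - 1) * R + m * S = 0) (h2 : n ^ 2 + (m - 1) * R ^ 2 + m * S ^ 2 = 2 * m * n)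
    (hR : 0 ≤ R) (hS : S ≤ -1) :
    n = 1 ∨ ∃ a : ℤ, 0 ≤ a ∧ m = 2 * a ^ 2 + 2 * a + 1 ∧ n = (a + 1) * (2 * a + 1) := by
  obtain ⟨d, hd⟩ : ∃ d, d = -S - R := ⟨_, rfl⟩
  have hS' : S = -R - d := by omega
  have hn' : n = m * d + R := by
    rw [hS'] at h1
    linear_combination h1
  have hE : m * d * (d - 2) + d ^ 2 + 4 * d * R + 2 * R * (R - 1) = 0 := by
    have h3 : m * (m * d * (d - 2) + d ^ 2 + 4 * d * R + 2 * R * (R - 1)) = 0 := by
      rw [hn', hS'] at h2
      linear_combination h2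
    exact (mul_eq_zero.mp h3).resolve_left (by omega)
  have hRR : 0 ≤ R * (R - 1) := by
    rcases eq_or_lt_of_le hR with h | h
    · rw [← h]; simp
    · exact mul_nonneg hR (by omega)
  rcases lt_or_ge d 0 with hd0 | hd0
  · exfalso
    obtain ⟨e, he⟩ : ∃ e, e = -d := ⟨_, rfl⟩
    have he1 : 1 ≤ e := by omega
    have hd' : d = -e := by omega
    have hm2 : 2 ≤ m := by omega
    have hR' : R = n + m * e := by
      rw [hn', hd']
      ring
    have hid : m * d * (d - 2) + d ^ 2 + 4 * d * R + 2 * R * (R - 1) =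
        m * e ^ 2 * (2 * m - 3) + e ^ 2 + 4 * e * n * (m - 1) + 2 * n * (n - 1) := by
      rw [hR', hd']
      ring
    have t1 : 0 ≤ m * e ^ 2 * (2 * m - 3) := mul_nonneg (by positivity) (by omega)
    have t2 : 0 < e ^ 2 := by positivity
    have t3 : 0 ≤ 4 * e * n * (m - 1) := mul_nonneg (by positivity) (by omega)
    have t4 : 0 ≤ 2 * n * (n - 1) := mul_nonneg (by positivity) (by omega)
    rw [hid] at hE
    linarith
  · rcases eq_or_lt_of_le hd0 with hd1 | hd1
    · left
      rw [← hd1] at hn' hE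
      have h3 : R * (R - 1) = 0 := by linarith
      rcases mul_eq_zero.mp h3 with h4 | h4
      · rw [hn', h4] at hn
        simp at hn
      · rw [hn']
        have : R = 1 := by omega
        rw [this]
        ring
    · rcases eq_or_lt_of_le (show 1 ≤ d by omega) with hd2 | hd2
      · right
        rw [← hd2] at hn' hE
        refine ⟨R, hR, ?_, ?_⟩
        · linear_combination -hE
        · rw [hn']
          linear_combination -hE
      · exfalso
        have t1 : 0 ≤ m * d * (d - 2) := mul_nonneg (by positivity) (by omega)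
        have t2 : 0 < d ^ 2 := by positivity
        have t3 : 0 ≤ 4 * d * R := by positivity
        have t4 : 0 ≤ 2 * R * (R - 1) := by linarith
        linarith

theorem num_main (m n R S : ℤ) (hm : 1 ≤ m) (hn : 0 < n) (hn2 : n < 2 * m - 1)
    (h1 : n + (m - 1) * R + m * S = 0) (h2 : n ^ 2 + (m - 1) * R ^ 2 + m * S ^ 2 = 2 * m * n) :
    n = 1 ∨ n = 2 * m - 2 ∨ ∃ a : ℤ, 0 ≤ a ∧ m = 2 * a ^ 2 + 2 * a + 1 ∧
      (n = (a + 1) * (2 * a + 1) ∨ n = a * (2 * a + 1)) := by
  rcases le_or_gt 0 R with hR | hR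
  · have hS : S ≤ -1 := by
      by_contra h
      have h3 : 0 ≤ S := by omega
      have t1 : 0 ≤ (m - 1) * R := mul_nonneg (by omega) hR
      have t2 : 0 ≤ m * S := mul_nonneg (by omega) h3
      linarith
    rcases num_aux m n R S hm hn hn2 h1 h2 hR hS with h | ⟨a, ha, h3, h4⟩
    · exact Or.inl h
    · exact Or.inr (Or.inr ⟨a, ha, h3, Or.inl h4⟩)
  · have hS : 0 ≤ S := by
      by_contra h
      have h3 : S ≤ -1 := by omega
      have t1 : (m - 1) * R ≤ (m - 1) * (-1) := mul_le_mul_of_nonneg_left (by omega) (by omega)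
      have t2 : m * S ≤ m * (-1) := mul_le_mul_of_nonneg_left h3 (by omega)
      linarith
    have h3 := num_aux m (2 * m - 1 - n) (-1 - R) (-1 - S) hm (by omega) (by omega)
      (by linear_combination -h1) (by linear_combination h2 + 2 * h1) (by omega) (by omega)
    rcases h3 with h | ⟨a, ha, h4, h5⟩
    · right; left; omega
    · right; right
      refine ⟨a, ha, h4, Or.inr ?_⟩
      rw [h4] at h5
      linear_combination -h5

universe u v

open Cfsg (classInner IsIrrCharacter IsCharacter IrrCharacter IsClassFunction permRep)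
open Cfsg.Agent.Lib.Char Cfsg.Agent.Lib.Perm.CentRing
open MulAction

variable {G : Type u} [Group G] [Fintype G] {Ω : Type v} [Fintype Ω] [MulAction G Ω]

/-- The subdegree. -/
noncomputable abbrev subdeg (G : Type u) [Group G] [MulAction G Ω] (a b : Ω) : ℕ :=
  Nat.card (orbit (stabilizer G a) b)

omit [Fintype G] [Fintype Ω] in
theorem subdeg_eq_of_mem {a b c : Ω} (h : b ∈ orbit (stabilizer G a) c) :
    subdeg G a b = subdeg G a c := by
  simp only [subdeg]
  rw [orbit_eq_iff.mpr h]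

theorem rank_three_data (a₀ : Ω)
    (hrank : Nat.card (orbitRel.Quotient (stabilizer G a₀) Ω) = 3) :
    ∃ b₁ b₂ : Ω, b₁ ≠ a₀ ∧ b₂ ≠ a₀ ∧ b₂ ∉ orbit (stabilizer G a₀) b₁ ∧
      (∀ b, b ≠ a₀ → b ∈ orbit (stabilizer G a₀) b₁ ∨ b ∈ orbit (stabilizer G a₀) b₂) ∧
      Fintype.card Ω = 1 + subdeg G a₀ b₁ + subdeg G a₀ b₂ := by
  classical
  let H := stabilizer G a₀
  letI : Fintype (orbitRel.Quotient H Ω) := Fintype.ofFinite _
  have h1 : Fintype.card Ω = ∑ ω : orbitRel.Quotient H Ω, Nat.card ω.orbit := by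
    rw [← Nat.card_eq_fintype_card, Nat.card_congr (selfEquivSigmaOrbits' H Ω), Nat.card_sigma]
  let ω₀ : orbitRel.Quotient H Ω := Quotient.mk'' a₀
  have hfix : orbit H a₀ = {a₀} := by
    ext x
    constructor
    · rintro ⟨h, rfl⟩
      exact h.2
    · rintro rfl
      exact mem_orbit_self _
  have h2 : Nat.card ω₀.orbit = 1 := by
    rw [orbitRel.Quotient.orbit_mk a₀, hfix]
    simp
  have hout : ∀ ω : orbitRel.Quotient H Ω, ω ≠ ω₀ → ω.out ≠ a₀ := by
    intro ω hω h5
    apply hω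
    have h6 : ω = Quotient.mk'' ω.out := (Quotient.out_eq' ω).symm
    rw [h6, h5]
  have hmk : ∀ b : Ω, b ≠ a₀ → (Quotient.mk'' b : orbitRel.Quotient H Ω) ≠ ω₀ := by
    intro b hb h8
    have h9 : b ∈ ω₀.orbit := by
      rw [← h8]
      exact orbitRel.Quotient.mem_orbit.mpr rfl
    rw [orbitRel.Quotient.orbit_mk a₀, hfix] at h9
    exact hb h9
  have hcard : (Finset.univ.erase ω₀).card = 2 := by
    rw [Finset.card_erase_of_mem (Finset.mem_univ _), Finset.card_univ,
      ← Nat.card_eq_fintype_card, hrank]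
  obtain ⟨ω₁, ω₂, hne, he⟩ := Finset.card_eq_two.mp hcard
  have h10 : ω₁ ≠ ω₀ := by
    have : ω₁ ∈ Finset.univ.erase ω₀ := by rw [he]; simp
    exact Finset.ne_of_mem_erase this
  have h20 : ω₂ ≠ ω₀ := by
    have : ω₂ ∈ Finset.univ.erase ω₀ := by rw [he]; simp
    exact Finset.ne_of_mem_erase this
  have ho1 := orbitRel.Quotient.orbit_eq_orbit_out ω₁ Quotient.out_eq'
  have ho2 := orbitRel.Quotient.orbit_eq_orbit_out ω₂ Quotient.out_eq'
  refine ⟨ω₁.out, ω₂.out, hout _ h10, hout _ h20, ?_, ?_, ?_⟩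
  · intro h
    apply hne
    rw [← ho1] at h
    have h3 := orbitRel.Quotient.mem_orbit.mp h
    rw [Quotient.out_eq'] at h3
    exact h3.symm
  · intro b hb
    have h3 : (Quotient.mk'' b : orbitRel.Quotient H Ω) ∈ Finset.univ.erase ω₀ :=
      Finset.mem_erase.mpr ⟨hmk b hb, Finset.mem_univ _⟩
    rw [he, Finset.mem_insert, Finset.mem_singleton] at h3
    rcases h3 with h3 | h3
    · left
      rw [← ho1]
      exact orbitRel.Quotient.mem_orbit.mpr h3
    · right
      rw [← ho2]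
      exact orbitRel.Quotient.mem_orbit.mpr h3
  · have h3 := Finset.add_sum_erase Finset.univ (fun ω : orbitRel.Quotient H Ω =>
      Nat.card ω.orbit) (Finset.mem_univ ω₀)
    simp only [h2] at h3
    rw [he, Finset.sum_pair hne, ho1, ho2] at h3
    rw [h1, ← h3]
    rw [add_assoc]

theorem swap_of_parity [IsPretransitive G Ω] {a₀ b₁ b₂ : Ω} {m : ℕ} (hm : Fintype.card Ω = 2 * m)
    (hb₁ : b₁ ≠ a₀)
    (hall : ∀ b, b ≠ a₀ → b ∈ orbit (stabilizer G a₀) b₁ ∨ b ∈ orbit (stabilizer G a₀) b₂)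
    (hsum : Fintype.card Ω = 1 + subdeg G a₀ b₁ + subdeg G a₀ b₂) :
    ∃ g : G, g • a₀ = b₁ ∧ g • b₁ = a₀ := by
  classical
  obtain ⟨g, hg⟩ := exists_smul_eq G a₀ b₁
  let b' : Ω := g⁻¹ • a₀
  have hb' : b' ≠ a₀ := by
    intro h
    apply hb₁
    have h3 : g • b' = a₀ := smul_inv_smul g a₀
    rw [h, hg] at h3
    exact h3
  have hrel : ∀ x y : Ω, orbC G a₀ b₁ x y = orbC G a₀ b' y x := by
    intro x y
    rw [orbC_apply, orbC_apply]
    congr 1
    apply propext
    constructor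
    · rintro ⟨k, h1, h2⟩
      refine ⟨k * g, ?_, ?_⟩
      · rw [mul_smul, hg, h2]
      · rw [mul_smul]
        change k • g • g⁻¹ • a₀ = x
        rw [smul_inv_smul, h1]
    · rintro ⟨k, h1, h2⟩
      refine ⟨k * g⁻¹, ?_, ?_⟩
      · rw [mul_smul]
        exact h2
      · rw [mul_smul, ← hg, inv_smul_smul]
        exact h1
  have hnn : subdeg G a₀ b₁ = subdeg G a₀ b' := by
    have h3 : ∑ x, ∑ y, orbC G a₀ b₁ x y = ∑ y, ∑ x, orbC G a₀ b' y x := by
      have h0 : ∑ x, ∑ y, orbC G a₀ b' y x = ∑ y, ∑ x, orbC G a₀ b' y x := Finset.sum_comm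
      rw [← h0]
      exact Finset.sum_congr rfl fun x _ => Finset.sum_congr rfl fun y _ => hrel x y
    simp only [sum_row, Finset.sum_const, Finset.card_univ, nsmul_eq_mul] at h3
    have hpos : (Fintype.card Ω : ℂ) ≠ 0 := by
      have : Fintype.card Ω ≠ 0 := by
        have := Fintype.card_pos_iff.mpr ⟨a₀⟩
        omega
      exact_mod_cast this
    have h4 := mul_left_cancel₀ hpos h3
    exact_mod_cast h4
  rcases hall b' hb' with h | h
  · obtain ⟨k, hk⟩ := h
    refine ⟨g * k, ?_, ?_⟩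
    · rw [mul_smul]
      have : (k : G) • a₀ = a₀ := k.2
      rw [this, hg]
    · rw [mul_smul]
      have h3 : (k : G) • b₁ = b' := hk
      rw [h3]
      exact smul_inv_smul g a₀
  · exfalso
    have h3 := subdeg_eq_of_mem h
    rw [h3] at hnn
    omega

/-- A suborbit of length one forces the stabiliser to be normal, in a primitive group. -/
theorem stabilizer_normal_of_subdeg_one (hprim : IsPreprimitive G Ω) {a b : Ω} (hab : b ≠ a)
    (h1 : subdeg G a b = 1) : ∀ c : Ω, subdeg G a c = 1 := by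
  classical
  haveI : IsPreprimitive G Ω := hprim
  haveI : Nontrivial Ω := ⟨⟨b, a, hab⟩⟩
  have hco := IsPreprimitive.isCoatom_stabilizer_of_isPreprimitive (G := G) a
  have hfix : ∀ h ∈ stabilizer G a, h • b = b := by
    intro h hh
    have h2 := Nat.card_eq_one_iff_unique.mp h1
    haveI := h2.1
    have h3 : (⟨b, mem_orbit_self b⟩ : orbit (stabilizer G a) b) =
        ⟨h • b, ⟨⟨h, hh⟩, rfl⟩⟩ := Subsingleton.elim _ _
    exact (congrArg Subtype.val h3).symm
  have hle : stabilizer G a ≤ stabilizer G b := fun h hh => hfix h hh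
  have hnetop : stabilizer G b ≠ ⊤ := by
    intro h
    obtain ⟨g, hg⟩ := exists_smul_eq G b a
    have : g ∈ stabilizer G b := by rw [h]; trivial
    have h3 : g • b = b := this
    rw [h3] at hg
    exact hab hg
  have heq : stabilizer G a = stabilizer G b := by
    by_contra hne
    exact hnetop (hco.2 _ (lt_of_le_of_ne hle hne))
  obtain ⟨g, hg⟩ := exists_smul_eq G a b
  have hnorm : Subgroup.normalizer (stabilizer G a : Set G) = ⊤ := by
    by_contra hne
    have h2 : stabilizer G a ≤ Subgroup.normalizer (stabilizer G a : Set G) :=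
      Subgroup.le_normalizer
    have h3 : stabilizer G a = Subgroup.normalizer (stabilizer G a : Set G) := by
      by_contra h4
      exact hne (hco.2 _ (lt_of_le_of_ne h2 h4))
    have hgn : g ∈ Subgroup.normalizer (stabilizer G a : Set G) := by
      rw [Subgroup.mem_normalizer_iff]
      intro h
      constructor
      · intro hh
        have : g * h * g⁻¹ ∈ stabilizer G b := by
          change (g * h * g⁻¹) • b = b
          rw [← hg, mul_smul, mul_smul, inv_smul_smul]
          have h5 : h • a = a := hh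
          rw [h5]
        rw [← heq] at this
        exact this
      · intro hh
        have h5 : g * h * g⁻¹ ∈ stabilizer G b := by
          rw [← heq]
          exact hh
        have h6 : (g * h * g⁻¹) • b = b := h5
        rw [← hg, mul_smul, mul_smul, inv_smul_smul] at h6
        exact smul_left_cancel g h6
    rw [← h3] at hgn
    have h7 : g • a = a := hgn
    rw [hg] at h7
    exact hab h7
  intro c
  obtain ⟨g', hg'⟩ := exists_smul_eq G a c
  have hc : ∀ h ∈ stabilizer G a, h • c = c := by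
    intro h hh
    have h2 : g'⁻¹ ∈ Subgroup.normalizer (stabilizer G a : Set G) := by rw [hnorm]; trivial
    have h3 := (Subgroup.mem_normalizer_iff.mp h2 h).mp hh
    have h4 : (g'⁻¹ * h * g'⁻¹⁻¹) • a = a := h3
    rw [inv_inv, mul_smul, mul_smul, hg', inv_smul_eq_iff, hg'] at h4
    exact h4
  have horb : orbit (stabilizer G a) c = {c} := by
    ext x
    constructor
    · rintro ⟨h, rfl⟩
      exact hc h h.2
    · rintro rfl
      exact mem_orbit_self _
  simp only [subdeg]
  rw [horb]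
  simp

section Main

variable [IsPretransitive G Ω]

omit [Fintype G] [Fintype Ω] [IsPretransitive G Ω] in
theorem orbC_zero_or_one (a b x y : Ω) : orbC G a b x y = 0 ∨ orbC G a b x y = 1 := by
  classical
  rw [orbC_apply]
  split_ifs
  · exact Or.inr rfl
  · exact Or.inl rfl

theorem mat_relation {a₀ b₁ b₂ : Ω} (hb₁ : b₁ ≠ a₀)
    (hnot : b₂ ∉ orbit (stabilizer G a₀) b₁)
    (hall : ∀ b, b ≠ a₀ → b ∈ orbit (stabilizer G a₀) b₁ ∨ b ∈ orbit (stabilizer G a₀) b₂)
    (hsym : ∀ x y, orbC G a₀ b₁ x y = orbC G a₀ b₁ y x) [DecidableEq Ω] :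
    ∃ Λ Μ : ℤ, ∀ x y, (orbC G a₀ b₁ * orbC G a₀ b₁) x y =
      (subdeg G a₀ b₁ : ℂ) * (if x = y then 1 else 0) + (Λ : ℂ) * orbC G a₀ b₁ x y +
        (Μ : ℂ) * (1 - (if x = y then 1 else 0) - orbC G a₀ b₁ x y) := by
  classical
  let M := orbC G a₀ b₁
  have hM : Inv G M := inv_orbC a₀ b₁
  have hP : Inv G (M * M) := inv_mul hM hM
  have hcast : ∀ x y, (M * M) x y = (((orbZ G a₀ b₁ * orbZ G a₀ b₁) x y : ℤ) : ℂ) := by
    intro x y
    have h1 : M * M = (orbZ G a₀ b₁ * orbZ G a₀ b₁).map (Int.castRingHom ℂ) := by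
      rw [Matrix.map_mul]
      rfl
    rw [h1]
    rfl
  have hdiag : ∀ x, M x x = 0 := by
    intro x
    change orbC G a₀ b₁ x x = 0
    rw [orbC_apply, if_neg]
    rintro ⟨g, h1, h2⟩
    exact hb₁ (MulAction.injective g (h2.trans h1.symm))
  have hPa : (M * M) a₀ a₀ = (subdeg G a₀ b₁ : ℂ) := by
    rw [Matrix.mul_apply, ← sum_row a₀ b₁ a₀]
    refine Finset.sum_congr rfl fun z _ => ?_
    have h1 : M z a₀ = M a₀ z := hsym z a₀
    rw [h1]
    rcases orbC_zero_or_one (G := G) a₀ b₁ a₀ z with h | h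
    · change orbC G a₀ b₁ a₀ z * orbC G a₀ b₁ a₀ z = _
      rw [h]
      simp
    · change orbC G a₀ b₁ a₀ z * orbC G a₀ b₁ a₀ z = _
      rw [h]
      simp
  refine ⟨(orbZ G a₀ b₁ * orbZ G a₀ b₁) a₀ b₁, (orbZ G a₀ b₁ * orbZ G a₀ b₁) a₀ b₂, ?_⟩
  rw [← hcast, ← hcast]
  intro x y
  obtain ⟨h, rfl⟩ := exists_smul_eq G a₀ x
  obtain ⟨z, rfl⟩ : ∃ z, y = h • z := ⟨h⁻¹ • y, (smul_inv_smul h y).symm⟩
  have h1 := hP h a₀ z
  have h2 : orbC G a₀ b₁ (h • a₀) (h • z) = orbC G a₀ b₁ a₀ z := hM h a₀ z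
  rw [h1, h2]
  have h3 : (h • a₀ = h • z) ↔ a₀ = z := (MulAction.injective h).eq_iff
  simp only [h3]
  by_cases hz : a₀ = z
  · subst hz
    have h4 : orbC G a₀ b₁ a₀ a₀ = 0 := hdiag a₀
    rw [hPa, h4]
    simp
  · rw [if_neg hz]
    rcases hall z (Ne.symm hz) with h5 | h5
    · obtain ⟨k, rfl⟩ := h5
      have hk : (k : G) • a₀ = a₀ := k.2
      have h6 : (M * M) a₀ (k • b₁) = (M * M) a₀ b₁ := by
        have := hP (k : G) a₀ b₁
        rw [hk] at this
        exact this
      have h7 : orbC G a₀ b₁ a₀ (k • b₁) = orbC G a₀ b₁ a₀ b₁ := by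
        have := hM (k : G) a₀ b₁
        rw [hk] at this
        exact this
      have h8 : orbC G a₀ b₁ a₀ b₁ = 1 := by
        rw [orbC_apply, if_pos]
        exact ⟨1, one_smul _ _, one_smul _ _⟩
      rw [h6, h7, h8]
      ring
    · obtain ⟨k, rfl⟩ := h5
      have hk : (k : G) • a₀ = a₀ := k.2
      have h6 : (M * M) a₀ (k • b₂) = (M * M) a₀ b₂ := by
        have := hP (k : G) a₀ b₂
        rw [hk] at this
        exact this
      have h7 : orbC G a₀ b₁ a₀ (k • b₂) = orbC G a₀ b₁ a₀ b₂ := by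
        have := hM (k : G) a₀ b₂
        rw [hk] at this
        exact this
      have h8 : orbC G a₀ b₁ a₀ b₂ = 0 := by
        rw [orbC_apply, if_neg]
        rintro ⟨g, h9, h10⟩
        exact hnot ⟨⟨g, h9⟩, h10⟩
      rw [h6, h7, h8]
      ring

omit [IsPretransitive G Ω] in
theorem quad_of_eigenvector [DecidableEq Ω] {M : Matrix Ω Ω ℂ} {n lam mu r : ℂ}
    (hrel : ∀ x y, (M * M) x y = n * (if x = y then 1 else 0) + lam * M x y +
      mu * (1 - (if x = y then 1 else 0) - M x y))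
    {v : Ω → ℂ} (hv : v ≠ 0) (hs : ∑ x, v x = 0) (hr : Matrix.toLin' M v = r • v) :
    r ^ 2 = n + lam * r + mu * (-1 - r) := by
  obtain ⟨x, hx⟩ : ∃ x, v x ≠ 0 := by
    by_contra h
    push Not at h
    exact hv (funext h)
  have h1 : Matrix.toLin' (M * M) v = (r ^ 2) • v := by
    rw [Matrix.toLin'_mul, LinearMap.comp_apply, hr, map_smul, hr, smul_smul, sq]
  have h2 := congrFun h1 x
  have hrx : ∀ x, ∑ y, M x y * v y = r * v x := fun x => congrFun hr x
  have h3 : Matrix.toLin' (M * M) v x = ∑ y, (M * M) x y * v y := rfl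
  rw [h3] at h2
  simp only [hrel] at h2
  have h4 : ∀ y, (n * (if x = y then 1 else 0) + lam * M x y +
      mu * (1 - (if x = y then 1 else 0) - M x y)) * v y =
      (n - mu) * ((if x = y then 1 else 0) * v y) + (lam - mu) * (M x y * v y) + mu * v y := by
    intro y
    ring
  simp only [h4, Finset.sum_add_distrib, ← Finset.mul_sum, hrx, hs, ite_mul, one_mul, zero_mul,
    Finset.sum_ite_eq, Finset.mem_univ, if_true, Pi.smul_apply, smul_eq_mul] at h2
  have h5 : (r ^ 2 - (n + lam * r + mu * (-1 - r))) * v x = 0 := by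
    linear_combination -h2
  rcases mul_eq_zero.mp h5 with h6 | h6
  · linear_combination h6
  · exact absurd h6 hx

theorem sum_zero_of_ne_one [DecidableEq Ω] {n : ℕ} {σ : Representation ℂ G (Fin n → ℂ)}
    (hσ : σ.IsIrreducible) (hne : σ.character ≠ fun _ => 1)
    (f : Representation.IntertwiningMap σ (permRep ℂ G Ω)) (u : Fin n → ℂ) :
    ∑ x, f u x = 0 := by
  classical
  let τ : Representation ℂ G ℂ := Representation.trivial ℂ G ℂ
  have hτ : τ.character = fun _ => 1 := by
    funext g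
    simp [Representation.character, τ]
  have h1 := classInner_character σ τ
  rw [hτ, classInner_irr_of_ne Cfsg.Agent.Lib.Char.isIrrCharacter_one
    (isIrrCharacter_character σ hσ) (Ne.symm hne)] at h1
  have h2 : Module.finrank ℂ (Representation.IntertwiningMap σ τ) = 0 := by
    exact_mod_cast h1.symm
  have h3 : Subsingleton (Representation.IntertwiningMap σ τ) := Module.finrank_zero_iff.mp h2
  let L : (Fin n → ℂ) →ₗ[ℂ] ℂ :=
    (∑ x : Ω, LinearMap.proj x) ∘ₗ f.toLinearMap
  have hL : ∀ v, L v = ∑ x, f v x := by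
    intro v
    simp only [L, LinearMap.comp_apply, LinearMap.sum_apply, LinearMap.proj_apply]
    rfl
  let ℓ : Representation.IntertwiningMap σ τ := ⟨L, fun g => by
    ext v
    simp only [LinearMap.comp_apply]
    change L (σ g _) = L _
    rw [hL, hL]
    simp only [f.isIntertwining]
    change ∑ x, f _ (g⁻¹ • x) = _
    exact Fintype.sum_equiv (MulAction.toPerm g⁻¹) _ _ (fun x => rfl)⟩
  have h4 : ℓ = 0 := Subsingleton.elim _ _
  have h5 : L u = 0 := congrArg (fun F : Representation.IntertwiningMap σ τ => F u) h4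
  rw [hL] at h5
  exact h5

theorem trivial_coeff [DecidableEq Ω] (a b : Ω) :
    classInner (twist (permRep ℂ G Ω) (Matrix.toLin' (orbC G a b))) (fun _ => 1) =
      (subdeg G a b : ℂ) := by
  classical
  haveI : Nonempty Ω := ⟨a⟩
  let τ : Representation ℂ G ℂ := Representation.trivial ℂ G ℂ
  have hτ : τ.character = fun _ => 1 := by
    funext g
    simp [Representation.character, τ]
  have hτi : τ.IsIrreducible := by
    rw [isIrreducible_iff]
    exact ⟨inferInstance, fun U _ => eq_bot_or_eq_top U⟩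
  have hcl : IsClassFunction G τ.character := by
    rw [hτ]
    intro g h
    rfl
  have h1 : classInner (permRep ℂ G Ω).character τ.character = 1 := by
    rw [hτ, ← permFn_eq]
    exact classInner_perm_one
  obtain ⟨f, hf, hD⟩ := exists_scalar hτi hcl (permRep ℂ G Ω) h1
  have h2 := hD (Matrix.toLin' (orbC G a b)) (comm_of_inv (inv_orbC a b)) (1 : ℂ)
  rw [hτ] at h2
  set c := classInner (twist (permRep ℂ G Ω) (Matrix.toLin' (orbC G a b))) (fun _ => 1) with hc
  let v := f (1 : ℂ)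
  have hv0 : v ≠ 0 := by
    intro h
    have : f (1 : ℂ) = f 0 := by rw [map_zero]; exact h
    exact one_ne_zero (hf this)
  have hinv : ∀ (g : G) x, v (g⁻¹ • x) = v x := by
    intro g x
    have h3 := f.isIntertwining _ _ g (1 : ℂ)
    have h4 : τ g (1 : ℂ) = 1 := rfl
    rw [h4] at h3
    exact (congrFun h3 x).symm
  have hconst : ∀ x, v x = v a := by
    intro x
    obtain ⟨g, rfl⟩ := exists_smul_eq G a x
    have := hinv g⁻¹ a
    rwa [inv_inv] at this
  have hk : v a ≠ 0 := by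
    intro h
    apply hv0
    funext x
    rw [hconst x, h]
    rfl
  have h5 := congrFun h2 a
  have h6 : Matrix.toLin' (orbC G a b) v a = ∑ y, orbC G a b a y * v y := rfl
  change Matrix.toLin' (orbC G a b) v a = c * v a at h5
  rw [h6] at h5
  simp only [hconst] at h5
  rw [← Finset.sum_mul, sum_row] at h5
  exact (mul_right_cancel₀ hk h5).symm

theorem trivial_isIrreducible : (Representation.trivial ℂ G ℂ).IsIrreducible := by
  rw [isIrreducible_iff]
  exact ⟨inferInstance, fun U _ => eq_bot_or_eq_top U⟩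

omit [Fintype G] in
theorem trivial_character : (Representation.trivial ℂ G ℂ).character = fun _ => 1 := by
  funext g
  simp [Representation.character]

/-- The main theorem on groups of Wielandt type. -/
theorem wielandt_main (hprim : IsPreprimitive G Ω) {m : ℕ} (hm : Fintype.card Ω = 2 * m) (a₀ : Ω)
    (hrank : Nat.card (orbitRel.Quotient (stabilizer G a₀) Ω) = 3) (χ₁ χ₂ : G → ℂ)
    (h₁ : IsIrrCharacter G χ₁) (h₂ : IsIrrCharacter G χ₂)
    (hπ : (fun g : G => (Nat.card (fixedBy Ω g) : ℂ)) = fun g => 1 + χ₁ g + χ₂ g)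
    (hd₁ : χ₁ 1 = (m : ℂ) - 1) (hd₂ : χ₂ 1 = m) :
    ∃ a : ℕ, 0 < a ∧ m = 2 * a ^ 2 + 2 * a + 1 ∧ ∀ b : Ω, b ≠ a₀ →
      Nat.card (orbit (stabilizer G a₀) b) = a * (2 * a + 1) ∨
        Nat.card (orbit (stabilizer G a₀) b) = (a + 1) * (2 * a + 1) := by
  classical
  haveI : Nonempty Ω := ⟨a₀⟩
  obtain ⟨b₁, b₂, hb₁, hb₂, hnot, hall, hsum⟩ := rank_three_data a₀ hrank
  obtain ⟨g₀, hg1, hg2⟩ := swap_of_parity hm hb₁ hall hsum
  have hn₁pos : 0 < subdeg G a₀ b₁ := Nat.card_pos_iff.mpr ⟨⟨⟨_, mem_orbit_self _⟩⟩, inferInstance⟩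
  have hn₂pos : 0 < subdeg G a₀ b₂ := Nat.card_pos_iff.mpr ⟨⟨⟨_, mem_orbit_self _⟩⟩, inferInstance⟩
  have hρ : (permRep ℂ G Ω).character = fun g => 1 + χ₁ g + χ₂ g := by
    rw [← hπ]
    exact permFn_eq.symm
  have hone : IsIrrCharacter G (fun _ : G => (1 : ℂ)) := isIrrCharacter_one
  have hinner : ∀ ψ, classInner (permRep ℂ G Ω).character ψ =
      classInner (fun _ => 1) ψ + classInner χ₁ ψ + classInner χ₂ ψ := by
    intro ψ
    rw [hρ]
    have : (fun g => 1 + χ₁ g + χ₂ g) = (fun _ : G => (1 : ℂ)) + χ₁ + χ₂ := rfl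
    rw [this, classInner_add_left, classInner_add_left]
  have hπ1 : classInner (permRep ℂ G Ω).character (fun _ => 1) = 1 := by
    rw [← permFn_eq]
    exact classInner_perm_one
  have hvals : ∀ {χ ψ : G → ℂ}, IsIrrCharacter G χ → IsIrrCharacter G ψ →
      classInner χ ψ = 0 ∨ classInner χ ψ = 1 := by
    intro χ ψ h h'
    rw [classInner_irr h h']
    split_ifs
    · exact Or.inr rfl
    · exact Or.inl rfl
  have he : classInner χ₁ (fun _ => 1) = 0 ∧ classInner χ₂ (fun _ => 1) = 0 := by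
    have h3 := hinner (fun _ => 1)
    rw [hπ1, classInner_irr_self hone] at h3
    rcases hvals h₁ hone with h4 | h4 <;> rcases hvals h₂ hone with h5 | h5
    · exact ⟨h4, h5⟩
    · rw [h4, h5] at h3; norm_num at h3
    · rw [h4, h5] at h3; norm_num at h3
    · rw [h4, h5] at h3; norm_num at h3
  have hne1 : χ₁ ≠ fun _ => 1 := by
    intro h
    have h3 := he.1
    rw [h, classInner_irr_self hone] at h3
    exact one_ne_zero h3
  have hne2 : χ₂ ≠ fun _ => 1 := by
    intro h
    have h3 := he.2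
    rw [h, classInner_irr_self hone] at h3
    exact one_ne_zero h3
  have hne12 : χ₁ ≠ χ₂ := by
    intro h
    rw [h, hd₂] at hd₁
    have h3 : (1 : ℂ) = 0 := by linear_combination hd₁
    exact one_ne_zero h3
  have hm1 : classInner (permRep ℂ G Ω).character χ₁ = 1 := by
    rw [hinner, classInner_irr_self h₁, classInner_irr_of_ne hone h₁ hne1.symm,
      classInner_irr_of_ne h₂ h₁ hne12.symm]
    simp
  have hm2 : classInner (permRep ℂ G Ω).character χ₂ = 1 := by
    rw [hinner, classInner_irr_self h₂, classInner_irr_of_ne hone h₂ hne2.symm,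
      classInner_irr_of_ne h₁ h₂ hne12]
    simp
  have hm0 : ∀ χ : G → ℂ, IsIrrCharacter G χ → χ ≠ (fun _ => 1) → χ ≠ χ₁ → χ ≠ χ₂ →
      classInner (permRep ℂ G Ω).character χ = 0 := by
    intro χ hχ h3 h4 h5
    rw [hinner, classInner_irr_of_ne hone hχ h3.symm, classInner_irr_of_ne h₁ hχ h4.symm,
      classInner_irr_of_ne h₂ hχ h5.symm]
    simp
  obtain ⟨k₁, σ₁, hσ₁, hc₁⟩ := id h₁
  obtain ⟨k₂, σ₂, hσ₂, hc₂⟩ := id h₂
  have hcl₁ : IsClassFunction G σ₁.character := by
    rw [hc₁]; exact IsCharacter.isClassFunction (IsIrrCharacter.isCharacter h₁)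
  have hcl₂ : IsClassFunction G σ₂.character := by
    rw [hc₂]; exact IsCharacter.isClassFunction (IsIrrCharacter.isCharacter h₂)
  let M := orbC G a₀ b₁
  let A : Module.End ℂ (Ω → ℂ) := Matrix.toLin' M
  have hAc : ∀ g v, A (permRep ℂ G Ω g v) = permRep ℂ G Ω g (A v) :=
    fun g v => comm_of_inv (inv_orbC a₀ b₁) g v
  have hAAc : ∀ g v, (A * A) (permRep ℂ G Ω g v) = permRep ℂ G Ω g ((A * A) v) := by
    intro g v
    simp only [Module.End.mul_apply]
    rw [hAc, hAc]
  have hsym : ∀ x y, orbC G a₀ b₁ x y = orbC G a₀ b₁ y x := by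
    intro x y
    rw [orbC_apply, orbC_apply]
    congr 1
    apply propext
    constructor
    · rintro ⟨k, h3, h4⟩
      exact ⟨k * g₀, by rw [mul_smul, hg1, h4], by rw [mul_smul, hg2, h3]⟩
    · rintro ⟨k, h3, h4⟩
      exact ⟨k * g₀, by rw [mul_smul, hg1, h4], by rw [mul_smul, hg2, h3]⟩
  -- the trace formula
  have htrace : ∀ D : Module.End ℂ (Ω → ℂ),
      (∀ g v, D (permRep ℂ G Ω g v) = permRep ℂ G Ω g (D v)) →
      LinearMap.trace ℂ (Ω → ℂ) D = classInner (twist (permRep ℂ G Ω) D) (fun _ => 1) +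
        classInner (twist (permRep ℂ G Ω) D) χ₁ * ((m : ℂ) - 1) +
        classInner (twist (permRep ℂ G Ω) D) χ₂ * (m : ℂ) := by
    intro D hD
    rw [trace_eq_sum (permRep ℂ G Ω) D hD]
    let one : IrrCharacter G := ⟨fun _ => 1, hone⟩
    let X₁ : IrrCharacter G := ⟨χ₁, h₁⟩
    let X₂ : IrrCharacter G := ⟨χ₂, h₂⟩
    have hs : ({one, X₁, X₂} : Finset (IrrCharacter G)) ⊆ Finset.univ := Finset.subset_univ _
    rw [← Finset.sum_subset hs]
    · rw [Finset.sum_insert, Finset.sum_insert, Finset.sum_singleton]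
      · simp only [one, X₁, X₂, hd₁, hd₂]
        ring
      · intro h
        rw [Finset.mem_singleton] at h
        exact hne12 (congrArg Subtype.val h)
      · intro h
        rw [Finset.mem_insert, Finset.mem_singleton] at h
        rcases h with h | h
        · exact hne1 (congrArg Subtype.val h).symm
        · exact hne2 (congrArg Subtype.val h).symm
    · rintro ⟨χ, hχ⟩ _ hnot'
      have h3 : χ ≠ fun _ => 1 := by
        rintro rfl
        exact hnot' (by simp [one])
      have h4 : χ ≠ χ₁ := by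
        rintro rfl
        exact hnot' (by simp [X₁])
      have h5 : χ ≠ χ₂ := by
        rintro rfl
        exact hnot' (by simp [X₂])
      have h6 := hm0 χ hχ h3 h4 h5
      obtain ⟨k, σ, hσ, rfl⟩ := id hχ
      have h7 := classInner_twist_eq_zero σ
        (IsCharacter.isClassFunction (IsIrrCharacter.isCharacter hχ)) _ h6 D
      simp only
      rw [h7, zero_mul]
  have hτ := trivial_character (G := G)
  have hcoef1 : classInner (twist (permRep ℂ G Ω) (A * A)) (fun _ => 1) =
      (subdeg G a₀ b₁ : ℂ) ^ 2 := by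
    have h3 := classInner_twist_mul (trivial_isIrreducible (G := G))
      (by rw [hτ]; intro g h; rfl) (permRep ℂ G Ω) (Or.inr (by rw [hτ]; exact hπ1)) A A hAc hAc
    rw [hτ, trivial_coeff a₀ b₁] at h3
    rw [h3, sq]
  have hcoef2 : classInner (twist (permRep ℂ G Ω) (A * A)) χ₁ =
      classInner (twist (permRep ℂ G Ω) A) χ₁ ^ 2 := by
    have h3 := classInner_twist_mul hσ₁ hcl₁ (permRep ℂ G Ω) (Or.inr (by rw [hc₁]; exact hm1))
      A A hAc hAc
    rw [hc₁] at h3
    rw [h3, sq]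
  have hcoef3 : classInner (twist (permRep ℂ G Ω) (A * A)) χ₂ =
      classInner (twist (permRep ℂ G Ω) A) χ₂ ^ 2 := by
    have h3 := classInner_twist_mul hσ₂ hcl₂ (permRep ℂ G Ω) (Or.inr (by rw [hc₂]; exact hm2))
      A A hAc hAc
    rw [hc₂] at h3
    rw [h3, sq]
  set r := classInner (twist (permRep ℂ G Ω) A) χ₁ with hr
  set s := classInner (twist (permRep ℂ G Ω) A) χ₂ with hs
  have hcard : (Fintype.card Ω : ℂ) = 2 * (m : ℂ) := by
    rw [hm]; push_cast; rfl
  have htr0 : LinearMap.trace ℂ (Ω → ℂ) A = 0 := by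
    rw [Matrix.trace_toLin'_eq]
    apply Finset.sum_eq_zero
    intro x _
    simp only [Matrix.diag, M]
    rw [orbC_apply, if_neg]
    rintro ⟨g, h3, h4⟩
    exact hb₁ (MulAction.injective g (h4.trans h3.symm))
  have htr2 : LinearMap.trace ℂ (Ω → ℂ) (A * A) = 2 * (m : ℂ) * (subdeg G a₀ b₁ : ℂ) := by
    have h3 : A * A = Matrix.toLin' (M * M) := by
      rw [Matrix.toLin'_mul]
      rfl
    rw [h3, Matrix.trace_toLin'_eq]
    simp only [Matrix.trace, Matrix.diag, Matrix.mul_apply]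
    have h4 : ∀ x y, M x y * M y x = M x y := by
      intro x y
      have h5 : M y x = M x y := hsym y x
      rw [h5]
      rcases orbC_zero_or_one (G := G) a₀ b₁ x y with h | h
      · change orbC G a₀ b₁ x y * orbC G a₀ b₁ x y = orbC G a₀ b₁ x y
        rw [h]
        simp
      · change orbC G a₀ b₁ x y * orbC G a₀ b₁ x y = orbC G a₀ b₁ x y
        rw [h]
        simp
    simp only [h4]
    have h5 : ∀ x, ∑ y, M x y = (subdeg G a₀ b₁ : ℂ) := fun x => sum_row a₀ b₁ x
    simp only [h5, Finset.sum_const, Finset.card_univ, nsmul_eq_mul, hcard]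
  have E1 := htrace A hAc
  rw [htr0, trivial_coeff a₀ b₁, ← hr, ← hs] at E1
  have E2 := htrace (A * A) hAAc
  rw [htr2, hcoef1, hcoef2, hcoef3] at E2
  obtain ⟨Λ, Μ, hrel⟩ := mat_relation hb₁ hnot hall hsym
  have hquad : ∀ {k : ℕ} {σ : Representation ℂ G (Fin k → ℂ)}, σ.IsIrreducible →
      IsClassFunction G σ.character → σ.character ≠ (fun _ => 1) →
      classInner (permRep ℂ G Ω).character σ.character = 1 →
      classInner (twist (permRep ℂ G Ω) A) σ.character ^ 2 =
        (subdeg G a₀ b₁ : ℂ) + (Λ : ℂ) * classInner (twist (permRep ℂ G Ω) A) σ.character +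
          (Μ : ℂ) * (-1 - classInner (twist (permRep ℂ G Ω) A) σ.character) := by
    intro k σ hσ hcl hne h1'
    obtain ⟨f, hf, hD⟩ := exists_scalar hσ hcl (permRep ℂ G Ω) h1'
    haveI : Nontrivial (Fin k → ℂ) := ((isIrreducible_iff σ).mp hσ).1
    obtain ⟨u, hu⟩ := exists_ne (0 : Fin k → ℂ)
    have hv : f u ≠ 0 := by
      intro h0
      apply hu
      apply hf
      rw [h0, map_zero]
    exact quad_of_eigenvector hrel hv (sum_zero_of_ne_one hσ hne f u) (hD A hAc u)
  have Q₁ : r ^ 2 = (subdeg G a₀ b₁ : ℂ) + (Λ : ℂ) * r + (Μ : ℂ) * (-1 - r) := by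
    have h3 := hquad hσ₁ hcl₁ (by rw [hc₁]; exact hne1) (by rw [hc₁]; exact hm1)
    rw [hc₁] at h3
    exact h3
  have Q₂ : s ^ 2 = (subdeg G a₀ b₁ : ℂ) + (Λ : ℂ) * s + (Μ : ℂ) * (-1 - s) := by
    have h3 := hquad hσ₂ hcl₂ (by rw [hc₂]; exact hne2) (by rw [hc₂]; exact hm2)
    rw [hc₂] at h3
    exact h3
  have hmpos : 0 < m := by
    have := Fintype.card_pos (α := Ω)
    omega
  have hrs : r ≠ s := by
    intro h
    rw [← h] at E1 E2
    have h3 : 2 * (m : ℂ) * (subdeg G a₀ b₁ : ℂ) * (2 * (m : ℂ) - 1 - (subdeg G a₀ b₁ : ℂ)) = 0 := by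
      linear_combination ((2 * (m : ℂ) - 1) * r - (subdeg G a₀ b₁ : ℂ)) * (-E1) -
        (2 * (m : ℂ) - 1) * (-E2)
    have h5 : 2 * (m : ℂ) - 1 - (subdeg G a₀ b₁ : ℂ) = (subdeg G a₀ b₂ : ℂ) := by
      have h6 : 2 * m = 1 + subdeg G a₀ b₁ + subdeg G a₀ b₂ := by omega
      have h7 : ((2 * m : ℕ) : ℂ) = ((1 + subdeg G a₀ b₁ + subdeg G a₀ b₂ : ℕ) : ℂ) := by rw [h6]
      push_cast at h7
      linear_combination h7
    rw [h5] at h3
    have h8 : (2 * m * subdeg G a₀ b₁ * subdeg G a₀ b₂ : ℕ) = 0 := by exact_mod_cast h3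
    have h9 : 2 * m * subdeg G a₀ b₁ * subdeg G a₀ b₂ ≠ 0 :=
      Nat.mul_ne_zero (Nat.mul_ne_zero (by omega) hn₁pos.ne') hn₂pos.ne'
    exact h9 h8
  have hsumrs : r + s = (Λ : ℂ) - (Μ : ℂ) := by
    have h3 : (r - s) * (r + s - ((Λ : ℂ) - (Μ : ℂ))) = 0 := by
      linear_combination Q₁ - Q₂
    rcases mul_eq_zero.mp h3 with h4 | h4
    · exact absurd (sub_eq_zero.mp h4) hrs
    · linear_combination h4
  let R : ℤ := (subdeg G a₀ b₁ : ℤ) + (m : ℤ) * (Λ - Μ)
  let S : ℤ := (Λ - Μ) - R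
  have hR : r = (R : ℂ) := by
    simp only [R]
    push_cast
    have h3 : s = (Λ : ℂ) - (Μ : ℂ) - r := by linear_combination hsumrs
    rw [h3] at E1
    linear_combination E1
  have hS : s = (S : ℂ) := by
    have h3 : s = (Λ : ℂ) - (Μ : ℂ) - r := by linear_combination hsumrs
    rw [h3, hR]
    simp only [S]
    push_cast
    ring
  have intE1 : (subdeg G a₀ b₁ : ℤ) + ((m : ℤ) - 1) * R + (m : ℤ) * S = 0 := by
    have h3 : (((subdeg G a₀ b₁ : ℤ) + ((m : ℤ) - 1) * R + (m : ℤ) * S : ℤ) : ℂ) = 0 := by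
      push_cast
      rw [← hR, ← hS]
      linear_combination -E1
    exact_mod_cast h3
  have intE2 : (subdeg G a₀ b₁ : ℤ) ^ 2 + ((m : ℤ) - 1) * R ^ 2 + (m : ℤ) * S ^ 2 =
      2 * (m : ℤ) * (subdeg G a₀ b₁ : ℤ) := by
    have h3 : (((subdeg G a₀ b₁ : ℤ) ^ 2 + ((m : ℤ) - 1) * R ^ 2 + (m : ℤ) * S ^ 2 : ℤ) : ℂ) =
        ((2 * (m : ℤ) * (subdeg G a₀ b₁ : ℤ) : ℤ) : ℂ) := by
      push_cast
      rw [← hR, ← hS]
      linear_combination -E2
    exact_mod_cast h3
  have hnum := num_main (m : ℤ) (subdeg G a₀ b₁ : ℤ) R S (by omega) (by omega) (by omega)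
    intE1 intE2
  rcases hnum with h | h | ⟨a, ha, hma, hna⟩
  · exfalso
    have h3 : subdeg G a₀ b₁ = 1 := by exact_mod_cast h
    have h4 := stabilizer_normal_of_subdeg_one hprim hb₁ h3 b₂
    omega
  · exfalso
    have h3 : subdeg G a₀ b₂ = 1 := by omega
    have h4 := stabilizer_normal_of_subdeg_one hprim hb₂ h3 b₁
    omega
  · lift a to ℕ using ha
    have hma' : m = 2 * a ^ 2 + 2 * a + 1 := by exact_mod_cast hma
    have hsumN : 2 * m = 1 + subdeg G a₀ b₁ + subdeg G a₀ b₂ := by omega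
    refine ⟨a, ?_, hma', ?_⟩
    · rcases Nat.eq_zero_or_pos a with h0 | h0
      · subst h0
        simp at hma'
        omega
      · exact h0
    · intro b hb
      have hval : subdeg G a₀ b = subdeg G a₀ b₁ ∨ subdeg G a₀ b = subdeg G a₀ b₂ := by
        rcases hall b hb with h | h
        · exact Or.inl (subdeg_eq_of_mem h)
        · exact Or.inr (subdeg_eq_of_mem h)
      change subdeg G a₀ b = _ ∨ subdeg G a₀ b = _
      rcases hna with h5 | h5
      · have h6 : subdeg G a₀ b₁ = (a + 1) * (2 * a + 1) := by exact_mod_cast h5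
        have h7 : subdeg G a₀ b₂ = a * (2 * a + 1) := by
          rw [hma', h6] at hsumN
          nlinarith
        rcases hval with h8 | h8
        · right; rw [h8, h6]
        · left; rw [h8, h7]
      · have h6 : subdeg G a₀ b₁ = a * (2 * a + 1) := by exact_mod_cast h5
        have h7 : subdeg G a₀ b₂ = (a + 1) * (2 * a + 1) := by
          rw [hma', h6] at hsumN
          nlinarith
        rcases hval with h8 | h8
        · left; rw [h8, h6]
        · right; rw [h8, h7]

end Main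

end Cfsg.Agent.Lib.Perm.Wielandt
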