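import Mathlib
import Cfsg.Agent.Lib.Perm.Basic
import Cfsg.Agent.Lib.Perm.PrimeAffine

/-!
The core of Wagner's theorem: a doubly transitive group of odd degree whose two-point stabilisers
have all their orbits permuted transitively by a bigger group is triply transitive.
-/

set_option autoImplicit false

namespace Cfsg.Agent.Lib.Perm

open MulAction

/-- The stabiliser of an unordered pair. -/
def pairStab {N X : Type*} [Group N] [MulAction N X] (a b : X) : Subgroup N where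
  carrier := {n | (n • a = a ∧ n • b = b) ∨ (n • a = b ∧ n • b = a)}
  one_mem' := Or.inl ⟨one_smul _ _, one_smul _ _⟩
  mul_mem' := by
    rintro x y (⟨h1, h2⟩ | ⟨h1, h2⟩) (⟨h3, h4⟩ | ⟨h3, h4⟩)
    · exact Or.inl ⟨by rw [mul_smul, h3, h1], by rw [mul_smul, h4, h2]⟩
    · exact Or.inr ⟨by rw [mul_smul, h3, h2], by rw [mul_smul, h4, h1]⟩
    · exact Or.inr ⟨by rw [mul_smul, h3, h1], by rw [mul_smul, h4, h2]⟩
    · exact Or.inl ⟨by rw [mul_smul, h3, h2], by rw [mul_smul, h4, h1]⟩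
  inv_mem' := by
    rintro x (⟨h1, h2⟩ | ⟨h1, h2⟩)
    · exact Or.inl ⟨by rw [inv_smul_eq_iff, h1], by rw [inv_smul_eq_iff, h2]⟩
    · exact Or.inr ⟨by rw [inv_smul_eq_iff, h2], by rw [inv_smul_eq_iff, h1]⟩

theorem mem_pairStab {N X : Type*} [Group N] [MulAction N X] (a b : X) (n : N) :
    n ∈ pairStab a b ↔ (n • a = a ∧ n • b = b) ∨ (n • a = b ∧ n • b = a) := Iff.rfl

/-- The two-point stabiliser. -/
def twoStab {N X : Type*} [Group N] [MulAction N X] (a b : X) : Subgroup N :=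
  stabilizer N a ⊓ stabilizer N b

theorem mem_twoStab {N X : Type*} [Group N] [MulAction N X] (a b : X) (n : N) :
    n ∈ twoStab a b ↔ n • a = a ∧ n • b = b := Iff.rfl

/-- All two-point stabilisers have the same size in a doubly transitive group. -/
theorem card_twoStab {N X : Type*} [Group N] [MulAction N X] (h2 : IsMultiplyPretransitive N X 2)
    (a b c d : X) (hab : a ≠ b) (hcd : c ≠ d) :
    Nat.card (twoStab a b : Subgroup N) = Nat.card (twoStab c d : Subgroup N) := by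
  obtain ⟨g, hg1, hg2⟩ := two_trans_apply h2 a b c d hab hcd
  apply Nat.card_congr
  refine ⟨fun x => ⟨g * x.1 * g⁻¹, ?_⟩, fun y => ⟨g⁻¹ * y.1 * g, ?_⟩, ?_, ?_⟩
  · obtain ⟨x, h1, h3⟩ := x
    refine ⟨?_, ?_⟩
    · change (g * x * g⁻¹) • c = c
      rw [mul_smul, mul_smul, ← hg1, inv_smul_smul, mem_stabilizer_iff.mp h1]
    · change (g * x * g⁻¹) • d = d
      rw [mul_smul, mul_smul, ← hg2, inv_smul_smul, mem_stabilizer_iff.mp h3]
  · obtain ⟨x, h1, h3⟩ := y
    refine ⟨?_, ?_⟩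
    · change (g⁻¹ * x * g) • a = a
      rw [mul_smul, mul_smul, hg1, mem_stabilizer_iff.mp h1, ← hg1, inv_smul_smul]
    · change (g⁻¹ * x * g) • b = b
      rw [mul_smul, mul_smul, hg2, mem_stabilizer_iff.mp h3, ← hg2, inv_smul_smul]
  · intro x
    apply Subtype.ext
    simp [mul_assoc]
  · intro x
    apply Subtype.ext
    simp [mul_assoc]

/-- The size of the pair stabiliser. -/
theorem card_pairStab {N X : Type*} [Group N] [Finite N] [MulAction N X]
    (h2 : IsMultiplyPretransitive N X 2) (a b : X) (hab : a ≠ b) :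
    Nat.card (pairStab a b : Subgroup N) = 2 * Nat.card (twoStab a b : Subgroup N) := by
  classical
  obtain ⟨s, hs1, hs2⟩ := two_trans_apply h2 a b b a hab hab.symm
  have hsT : s ∈ pairStab a b := Or.inr ⟨hs1, hs2⟩
  have h1 := (stabilizer (pairStab a b : Subgroup N) a).index_mul_card
  rw [index_stabilizer] at h1
  have horb : orbit (pairStab a b : Subgroup N) a = {a, b} := by
    ext x
    simp only [Set.mem_insert_iff, Set.mem_singleton_iff]
    constructor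
    · rintro ⟨⟨n, hn⟩, rfl⟩
      rcases hn with ⟨h3, -⟩ | ⟨h3, -⟩
      · exact Or.inl h3
      · exact Or.inr h3
    · rintro (rfl | rfl)
      · exact mem_orbit_self _
      · exact ⟨⟨s, hsT⟩, hs1⟩
  rw [horb, Set.ncard_pair hab] at h1
  rw [← h1]
  congr 1
  apply Nat.card_congr
  refine ⟨fun x => ⟨x.1.1, x.2, ?_⟩, fun y => ⟨⟨y.1, Or.inl y.2⟩, y.2.1⟩, ?_, ?_⟩
  · rcases x.1.2 with ⟨-, h3⟩ | ⟨h3, -⟩
    · exact h3
    · exfalso
      have h4 : (x.1.1 : N) • a = a := x.2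
      exact hab (h4.symm.trans h3)
  · intro x; rfl
  · intro x; rfl

/-- Core of Wagner's theorem. -/
theorem wagner_core {N X : Type*} [Group N] [Finite N] [MulAction N X] [Finite X]
    (h2 : IsMultiplyPretransitive N X 2) (hoddX : Odd (Nat.card X))
    (hsym : ∀ a b c c' : X, a ≠ b → c ≠ a → c ≠ b → c' ≠ a → c' ≠ b →
      ∃ (φ : N ≃* N) (g : X ≃ X), (∀ (n : N) (x : X), g (n • x) = φ n • g x) ∧ g a = a ∧ g b = b ∧
        g c = c')
    (a b c c' : X) (hab : a ≠ b) (hca : c ≠ a) (hcb : c ≠ b) (hca' : c' ≠ a) (hcb' : c' ≠ b) :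
    ∃ n : N, n • a = a ∧ n • b = b ∧ n • c = c' := by
  classical
  haveI : Fact (Nat.Prime 2) := ⟨Nat.prime_two⟩
  have hcardT := card_pairStab h2 a b hab
  obtain ⟨Q₀⟩ : Nonempty (Sylow 2 (pairStab a b : Subgroup N)) := inferInstance
  obtain ⟨Q, hQ⟩ : ∃ Q : Subgroup N, Q = (Q₀ : Subgroup _).map (pairStab a b : Subgroup N).subtype :=
    ⟨_, rfl⟩
  have hQT : ∀ q ∈ Q, q ∈ pairStab a b := by
    intro q hq
    rw [hQ] at hq
    obtain ⟨q', -, rfl⟩ := hq
    exact q'.2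
  have hQcard : Nat.card Q = 2 ^ (Nat.card (pairStab a b : Subgroup N)).factorization 2 := by
    rw [hQ, Subgroup.card_map_of_injective (Subgroup.subtype_injective _),
      Sylow.card_eq_multiplicity]
  have hQp : IsPGroup 2 Q := by
    apply IsPGroup.of_card (n := (Nat.card (pairStab a b : Subgroup N)).factorization 2)
    exact hQcard
  -- `Q` fixes at most one point
  have hfix1 : ∀ c₁ c₂ : X, c₁ ≠ c₂ → (∀ q ∈ Q, q • c₁ = c₁) → (∀ q ∈ Q, q • c₂ = c₂) → False := by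
    intro c₁ c₂ h12 h1 h3
    have hle : Q ≤ twoStab c₁ c₂ := fun q hq => ⟨h1 q hq, h3 q hq⟩
    have hdvd : Nat.card Q ∣ Nat.card (twoStab c₁ c₂ : Subgroup N) :=
      Subgroup.card_dvd_of_le hle
    rw [card_twoStab h2 c₁ c₂ a b h12 hab, hQcard, hcardT,
      Nat.factorization_mul (by norm_num) Nat.card_pos.ne'] at hdvd
    have hne : Nat.card (twoStab a b : Subgroup N) ≠ 0 := Nat.card_pos.ne'
    rw [Nat.Prime.pow_dvd_iff_le_factorization Nat.prime_two hne] at hdvd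
    simp only [Finsupp.add_apply, Nat.Prime.factorization_self Nat.prime_two] at hdvd
    omega
  -- fixed points in odd invariant sets
  have hodd_fixed : ∀ O : Set X, (∀ q ∈ Q, ∀ x ∈ O, q • x ∈ O) → Odd O.ncard →
      ∃ x ∈ O, ∀ q ∈ Q, q • x = x := by
    intro O hO hodd
    have h1 := ncard_modEq_ncard_inter_fixedPoints Q hQp O hO
    by_contra hno
    push Not at hno
    have h3 : O ∩ fixedPoints Q X = ∅ := by
      ext x
      simp only [Set.mem_inter_iff, Set.mem_empty_iff_false, iff_false, not_and]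
      intro hx hfx
      obtain ⟨q, hq, hqx⟩ := hno x hx
      exact hqx (hfx ⟨q, hq⟩)
    rw [h3, Set.ncard_empty] at h1
    rw [Nat.odd_iff] at hodd
    unfold Nat.ModEq at h1
    omega
  -- the set of remaining points
  let A : Set X := {x | x ≠ a ∧ x ≠ b}
  have hAc : A = ({a, b} : Set X)ᶜ := by
    ext x
    simp [A]
  have hAcard : A.ncard + 2 = Nat.card X := by
    have h1 := Set.ncard_add_ncard_compl ({a, b} : Set X)
    rw [Set.ncard_pair hab, ← hAc] at h1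
    omega
  have hAodd : Odd A.ncard := by
    rw [Nat.odd_iff] at hoddX ⊢
    omega
  have hAinv : ∀ τ ∈ (pairStab a b : Subgroup N), ∀ x ∈ A, τ • x ∈ A := by
    rintro τ (⟨h1, h3⟩ | ⟨h1, h3⟩) x ⟨hxa, hxb⟩
    · refine ⟨fun h => hxa ?_, fun h => hxb ?_⟩
      · exact smul_left_cancel τ (h.trans h1.symm)
      · exact smul_left_cancel τ (h.trans h3.symm)
    · refine ⟨fun h => hxb ?_, fun h => hxa ?_⟩
      · exact smul_left_cancel τ (h.trans h3.symm)
      · exact smul_left_cancel τ (h.trans h1.symm)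
  -- orbit sizes
  have horbsize : ∀ x ∈ A, ∀ y ∈ A,
      (orbit (pairStab a b : Subgroup N) x).ncard = (orbit (pairStab a b : Subgroup N) y).ncard := by
    rintro x ⟨hxa, hxb⟩ y ⟨hya, hyb⟩
    obtain ⟨φ, g, hg, hga, hgb, hgc⟩ := hsym a b x y hab hxa hxb hya hyb
    have hφT : ∀ τ : N, τ ∈ pairStab a b ↔ φ τ ∈ pairStab a b := by
      intro τ
      have h1 : ∀ u v : X, τ • u = v ↔ φ τ • g u = g v := by
        intro u v
        rw [← hg]
        exact g.injective.eq_iff.symm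
      simp only [mem_pairStab]
      rw [h1 a a, h1 b b, h1 a b, h1 b a, hga, hgb]
    have himg : orbit (pairStab a b : Subgroup N) y = g '' orbit (pairStab a b : Subgroup N) x := by
      ext z
      constructor
      · rintro ⟨⟨τ, hτ⟩, rfl⟩
        refine ⟨(φ.symm τ) • x, ⟨⟨φ.symm τ, ?_⟩, rfl⟩, ?_⟩
        · rw [hφT]
          simpa using hτ
        · rw [hg, hgc]
          simp
      · rintro ⟨_, ⟨⟨τ, hτ⟩, rfl⟩, rfl⟩
        refine ⟨⟨φ τ, (hφT τ).mp hτ⟩, ?_⟩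
        change φ τ • y = g (τ • x)
        rw [hg, hgc]
    rw [himg, Set.ncard_image_of_injective _ g.injective]
  have hAorbodd : ∀ x ∈ A, Odd (orbit (pairStab a b : Subgroup N) x).ncard := by
    intro x hx
    by_contra he
    rw [Nat.not_odd_iff_even] at he
    have h1 : 2 ∣ A.ncard := dvd_ncard_of_orbits (pairStab a b) A hAinv 2
      (fun y hy => by
        rw [horbsize y hy x hx]
        exact he.two_dvd)
    rw [Nat.odd_iff] at hAodd
    omega
  have hQorb : ∀ x : X, ∀ q ∈ Q, ∀ z ∈ orbit (pairStab a b : Subgroup N) x,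
      q • z ∈ orbit (pairStab a b : Subgroup N) x := by
    rintro x q hq _ ⟨τ, rfl⟩
    refine ⟨⟨q, hQT q hq⟩ * τ, ?_⟩
    exact mul_smul q (τ : N) x
  have hcA : c ∈ A := ⟨hca, hcb⟩
  have hcA' : c' ∈ A := ⟨hca', hcb'⟩
  obtain ⟨c₀, hc₀m, hc₀⟩ := hodd_fixed _ (hQorb c) (hAorbodd c hcA)
  obtain ⟨c₁, hc₁m, hc₁⟩ := hodd_fixed _ (hQorb c') (hAorbodd c' hcA')
  have hc01 : c₀ = c₁ := by
    by_contra h
    exact hfix1 c₀ c₁ h hc₀ hc₁
  subst hc01
  -- a swapping element in `Q`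
  obtain ⟨q, hq, hqa⟩ : ∃ q ∈ Q, q • a ≠ a := by
    by_contra hno
    push Not at hno
    refine hfix1 a b hab hno ?_
    intro q hq
    rcases hQT q hq with ⟨-, h⟩ | ⟨h, -⟩
    · exact h
    · exact absurd ((hno q hq).symm.trans h) hab
  have hqswap : q • a = b ∧ q • b = a := by
    rcases hQT q hq with ⟨h, -⟩ | h
    · exact absurd h hqa
    · exact h
  have hnorm : ∀ τ ∈ (pairStab a b : Subgroup N), ∃ u : N, u • a = a ∧ u • b = b ∧
      u • c₀ = τ • c₀ := by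
    rintro τ (⟨h1, h3⟩ | ⟨h1, h3⟩)
    · exact ⟨τ, h1, h3, rfl⟩
    · refine ⟨τ * q, ?_, ?_, ?_⟩
      · rw [mul_smul, hqswap.1, h3]
      · rw [mul_smul, hqswap.2, h1]
      · rw [mul_smul, hc₀ q hq]
  obtain ⟨τ₁, hτ₁⟩ := hc₀m
  obtain ⟨τ₂, hτ₂⟩ := hc₁m
  have hτ₁' : (τ₁ : N) • c = c₀ := hτ₁
  have hτ₂' : (τ₂ : N) • c' = c₀ := hτ₂
  obtain ⟨u₁, hu₁a, hu₁b, hu₁⟩ := hnorm ((τ₁ : N)⁻¹) (inv_mem τ₁.2)
  obtain ⟨u₂, hu₂a, hu₂b, hu₂⟩ := hnorm ((τ₂ : N)⁻¹) (inv_mem τ₂.2)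
  have hu₁c : u₁ • c₀ = c := by
    rw [hu₁, ← hτ₁', inv_smul_smul]
  have hu₂c : u₂ • c₀ = c' := by
    rw [hu₂, ← hτ₂', inv_smul_smul]
  refine ⟨u₂ * u₁⁻¹, ?_, ?_, ?_⟩
  · rw [mul_smul, inv_smul_eq_iff.mpr hu₁a.symm, hu₂a]
  · rw [mul_smul, inv_smul_eq_iff.mpr hu₁b.symm, hu₂b]
  · rw [mul_smul, inv_smul_eq_iff.mpr hu₁c.symm, hu₂c]

end Cfsg.Agent.Lib.Perm
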